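import Mathlib

/-!
# `|Out(²G₂(q))| = 2m+1`: statement file (S2127)

`q = 3^(2m+1) ≥ 27`, `G = ²G₂(q)`, `U = {x t u v}` a Sylow 3-subgroup (TI, `q³ + 1` conjugates,
`U` regular on the others), `H = {e s}` the torus, `Q` the second Sylow 3-subgroup normalized by
`H`.  `Aut G = Inn G · A0` with `A0` the stabilizer of `U` and `Q`, `Inn G ∩ A0 = H`, and `A0`
acts faithfully on `U`, where it is `{conj (e s) ∘ Frob^i}` of order `(q-1)(2m+1)`.
-/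

set_option autoImplicit false

namespace Cfsg.Agent.Lib.Helper18.ReeOutStmt

universe u v

/-! ## abstract group theory -/

/-- the Sylow `p`-subgroups intersect pairwise trivially -/
def TI (G : Type u) [Group G] (p : ℕ) : Prop :=
  ∀ P Q : Sylow p G, P ≠ Q → (P : Subgroup G) ⊓ (Q : Subgroup G) = ⊥

/-- `P` is transitive (by conjugation) on the other Sylow `p`-subgroups -/
def Reg (G : Type u) [Group G] (p : ℕ) [Fact p.Prime] (P : Sylow p G) : Prop :=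
  ∀ Q Q' : Sylow p G, Q ≠ P → Q' ≠ P → ∃ u ∈ (P : Subgroup G), u • Q = Q'

/-- the automorphisms stabilizing the subgroups `P` and `Q` -/
def A0 {G : Type u} [Group G] (P Q : Subgroup G) : Subgroup (MulAut G) where
  carrier := {α | (∀ g, α g ∈ P ↔ g ∈ P) ∧ (∀ g, α g ∈ Q ↔ g ∈ Q)}
  mul_mem' := by
    rintro α β ⟨h1, h2⟩ ⟨h3, h4⟩
    exact ⟨fun g => by rw [MulAut.mul_apply, h1, h3], fun g => by rw [MulAut.mul_apply, h2, h4]⟩
  one_mem' := ⟨fun g => by rw [MulAut.one_apply], fun g => by rw [MulAut.one_apply]⟩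
  inv_mem' := by
    rintro α ⟨h1, h2⟩
    exact ⟨fun g => by rw [← h1, MulAut.apply_inv_self], fun g => by rw [← h2, MulAut.apply_inv_self]⟩

theorem mem_A0 {G : Type u} [Group G] (P Q : Subgroup G) (α : MulAut G) :
    α ∈ A0 P Q ↔ (∀ g, α g ∈ P ↔ g ∈ P) ∧ (∀ g, α g ∈ Q ↔ g ∈ Q) := Iff.rfl

/-- REG: TI + at most `|P| + 1` Sylow subgroups (and at least two): `P` is transitive on the
others and there are exactly `|P| + 1` -/
def REG : Prop :=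
  ∀ (G : Type u) [Group G] [Finite G] (p : ℕ) [Fact p.Prime] (P : Sylow p G),
    TI G p → (∃ Q : Sylow p G, Q ≠ P) →
    Nat.card (Sylow p G) ≤ Nat.card ↥(P : Subgroup G) + 1 →
    Reg G p P ∧ Nat.card (Sylow p G) = Nat.card ↥(P : Subgroup G) + 1

/-- OUTCNT: `|Out G| · |N(P) ∩ N(Q)| = |A0 P Q|` -/
def OUTCNT : Prop :=
  ∀ (G : Type u) [Group G] [Finite G] (p : ℕ) [Fact p.Prime] (P Q : Sylow p G),
    Subgroup.center G = ⊥ → Q ≠ P → Reg G p P →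
    Nat.card (MulAut G ⧸ (MulAut.conj : G →* MulAut G).range) *
        Nat.card ↥(Subgroup.normalizer ((P : Subgroup G) : Set G) ⊓
          Subgroup.normalizer ((Q : Subgroup G) : Set G)) =
      Nat.card ↥(A0 (P : Subgroup G) (Q : Subgroup G))

/-- RIGID: an automorphism stabilizing `P`, `Q` and fixing `P` elementwise is trivial -/
def RIGID : Prop :=
  ∀ (G : Type u) [Group G] [Finite G] (p : ℕ) [Fact p.Prime] (P Q : Sylow p G),
    IsSimpleGroup G → Q ≠ P → Reg G p P →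
    ∀ α : MulAut G, α ∈ A0 (P : Subgroup G) (Q : Subgroup G) →
      (∀ u ∈ (P : Subgroup G), α u = u) → α = 1

/-- FIXQ: an abelian `H ≤ N(P)` with an element acting fixed-point-freely on `P` normalizes
exactly one other Sylow subgroup -/
def FIXQ : Prop :=
  ∀ (G : Type u) [Group G] [Finite G] (p : ℕ) [Fact p.Prime] (P : Sylow p G) (H : Subgroup G),
    TI G p → Reg G p P → (∃ Q : Sylow p G, Q ≠ P) →
    (∀ h ∈ H, ∀ k ∈ H, h * k = k * h) →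
    (∀ h ∈ H, ∀ u ∈ (P : Subgroup G), h * u * h⁻¹ ∈ (P : Subgroup G)) →
    (∃ h₀ ∈ H, ∀ u ∈ (P : Subgroup G), h₀ * u = u * h₀ → u = 1) →
    ∃ Q : Sylow p G, Q ≠ P ∧
      (∀ h ∈ H, ∀ u ∈ (Q : Subgroup G), h * u * h⁻¹ ∈ (Q : Subgroup G)) ∧
      ∀ Q' : Sylow p G, Q' ≠ P →
        (∀ h ∈ H, ∀ u ∈ (Q' : Subgroup G), h * u * h⁻¹ ∈ (Q' : Subgroup G)) → Q' = Q

/-- STAB: the two-point stabilizer `N(P) ∩ N(Q)` is `H`, by orders -/
def STAB : Prop :=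
  ∀ (G : Type u) [Group G] [Finite G] (p : ℕ) [Fact p.Prime] (P Q : Sylow p G) (H : Subgroup G),
    TI G p → Reg G p P → Q ≠ P →
    Nat.card (Sylow p G) = Nat.card ↥(P : Subgroup G) + 1 →
    Nat.card G = Nat.card ↥(P : Subgroup G) * Nat.card ↥H * (Nat.card ↥(P : Subgroup G) + 1) →
    (∀ h ∈ H, ∀ u ∈ (P : Subgroup G), h * u * h⁻¹ ∈ (P : Subgroup G)) →
    (∀ h ∈ H, ∀ u ∈ (Q : Subgroup G), h * u * h⁻¹ ∈ (Q : Subgroup G)) →
    Subgroup.normalizer ((P : Subgroup G) : Set G) ⊓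
      Subgroup.normalizer ((Q : Subgroup G) : Set G) = H

/-- IFFMEM: an automorphism of a finite group mapping a subgroup into itself maps it onto
itself -/
def IFFMEM : Prop :=
  ∀ (G : Type u) [Group G] [Finite G] (S : Subgroup G) (α : MulAut G),
    (∀ g ∈ S, α g ∈ S) → ∀ g, α g ∈ S ↔ g ∈ S

/-- FMEM: an automorphism stabilizing `P` and `H` stabilizes the unique other Sylow subgroup
`Q` normalized by `H` -/
def FMEM : Prop :=
  ∀ (G : Type u) [Group G] [Finite G] (p : ℕ) [Fact p.Prime] (P Q : Sylow p G) (H : Subgroup G)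
    (α : MulAut G), Q ≠ P →
    (∀ h ∈ H, ∀ u ∈ (Q : Subgroup G), h * u * h⁻¹ ∈ (Q : Subgroup G)) →
    (∀ Q' : Sylow p G, Q' ≠ P →
        (∀ h ∈ H, ∀ u ∈ (Q' : Subgroup G), h * u * h⁻¹ ∈ (Q' : Subgroup G)) → Q' = Q) →
    (∀ g, α g ∈ (P : Subgroup G) ↔ g ∈ (P : Subgroup G)) → (∀ g, α g ∈ H ↔ g ∈ H) →
    ∀ g, α g ∈ (Q : Subgroup G) ↔ g ∈ (Q : Subgroup G)

/-! ## the parametrization -/

/-- the parametrization of `U = {x t u v}` and `H = {e s}` inside `G`; `φ t = t^(3^m)`,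
`|K| = 3^(2m+1)`, `m ≥ 1` -/
structure OPar (G : Type u) [Group G] (K : Type v) [Field K] [Fintype K] (m : ℕ)
    (φ : K →+* K) (x : K → K → K → G) (e : K → G) : Prop where
  hm : 1 ≤ m
  cardK : Fintype.card K = 3 ^ (2 * m + 1)
  char3 : (3 : K) = 0
  phi : ∀ t, φ t = t ^ (3 ^ m)
  phi3 : ∀ t, φ (φ t) ^ 3 = t
  x_inj : ∀ t u v t' u' v', x t u v = x t' u' v' → t = t' ∧ u = u' ∧ v = v'
  x_mul : ∀ t u v t' u' v', x t u v * x t' u' v' =
    x (t + t') (u + u' - t * φ t' ^ 3) (v + v' - u * t' - t ^ 2 * φ t' ^ 3 + t * t' * φ t' ^ 3)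
  e_inj : ∀ s s', s ≠ 0 → s' ≠ 0 → e s = e s' → s = s'
  e_mul : ∀ s s', s ≠ 0 → s' ≠ 0 → e (s * s') = e s * e s'
  e_x : ∀ s, s ≠ 0 → ∀ t u v,
    e s * x t u v = x (s ^ 2 / φ s ^ 3 * t) (φ s ^ 3 / s * u) (s * v) * e s

/-- CENTER: the centre of `G` is trivial -/
def CENTER : Prop :=
  ∀ (G : Type u) [Group G] (K : Type v) [Field K] [Fintype K] (m : ℕ)
    (φ : K →+* K) (x : K → K → K → G) (e : K → G), OPar G K m φ x e →
    IsSimpleGroup G → Subgroup.center G = ⊥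

/-- SYLU: `{x t u v}` is a Sylow 3-subgroup of order `q³` -/
def SYLU : Prop :=
  ∀ (G : Type u) [Group G] [Finite G] (K : Type v) [Field K] [Fintype K] (m : ℕ)
    (φ : K →+* K) (x : K → K → K → G) (e : K → G), OPar G K m φ x e →
    Nat.card G = (3 ^ (2 * m + 1)) ^ 3 * (3 ^ (2 * m + 1) - 1) * ((3 ^ (2 * m + 1)) ^ 3 + 1) →
    ∃ P : Sylow 3 G, (∀ g : G, g ∈ (P : Subgroup G) ↔ ∃ t u v, g = x t u v) ∧
      Nat.card ↥(P : Subgroup G) = (3 ^ (2 * m + 1)) ^ 3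

/-- HSUB: `{e s : s ≠ 0}` is an abelian subgroup of order `q - 1` -/
def HSUB : Prop :=
  ∀ (G : Type u) [Group G] [Finite G] (K : Type v) [Field K] [Fintype K] (m : ℕ)
    (φ : K →+* K) (x : K → K → K → G) (e : K → G), OPar G K m φ x e →
    ∃ H : Subgroup G, (∀ g : G, g ∈ H ↔ ∃ s, s ≠ 0 ∧ g = e s) ∧
      Nat.card ↥H = 3 ^ (2 * m + 1) - 1 ∧ ∀ h ∈ H, ∀ k ∈ H, h * k = k * h

/-- NSYL: at most `q³ + 1` Sylow 3-subgroups (`N(P) ⊇ P H` of order `q³(q-1)`), at least two -/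
def NSYL : Prop :=
  ∀ (G : Type u) [Group G] [Finite G] (K : Type v) [Field K] [Fintype K] (m : ℕ)
    (φ : K →+* K) (x : K → K → K → G) (e : K → G), OPar G K m φ x e →
    Nat.card G = (3 ^ (2 * m + 1)) ^ 3 * (3 ^ (2 * m + 1) - 1) * ((3 ^ (2 * m + 1)) ^ 3 + 1) →
    IsSimpleGroup G →
    ∀ P : Sylow 3 G, (∀ g : G, g ∈ (P : Subgroup G) ↔ ∃ t u v, g = x t u v) →
      Nat.card (Sylow 3 G) ≤ (3 ^ (2 * m + 1)) ^ 3 + 1 ∧ ∃ Q : Sylow 3 G, Q ≠ P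

/-- FPF: some `e s₀` centralizes no nontrivial element of `U` -/
def FPF : Prop :=
  ∀ (G : Type u) [Group G] (K : Type v) [Field K] [Fintype K] (m : ℕ)
    (φ : K →+* K) (x : K → K → K → G) (e : K → G), OPar G K m φ x e →
    ∃ s₀ : K, s₀ ≠ 0 ∧ ∀ t u v, e s₀ * x t u v = x t u v * e s₀ → x t u v = 1

/-- SEMIA: an automorphism stabilizing `U` and `H` induces an additive map `f` on `U/A = K`
that is semi-equivariant for the action `t ↦ s²/φ(s)³ · t` of `H` -/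
def SEMIA : Prop :=
  ∀ (G : Type u) [Group G] (K : Type v) [Field K] [Fintype K] (m : ℕ)
    (φ : K →+* K) (x : K → K → K → G) (e : K → G), OPar G K m φ x e →
    ∀ α : MulAut G, (∀ t u v, ∃ t' u' v', α (x t u v) = x t' u' v') →
      (∀ s, s ≠ 0 → ∃ s', s' ≠ 0 ∧ α (e s) = e s') →
      ∃ f g : K → K, (∀ t u v, ∃ u' v', α (x t u v) = x (f t) u' v') ∧
        (∀ a b, f (a + b) = f a + f b) ∧ f 1 ≠ 0 ∧ (∀ s, s ≠ 0 → g s ≠ 0) ∧
        ∀ s t, s ≠ 0 → f (s ^ 2 / φ s ^ 3 * t) = g s ^ 2 / φ (g s) ^ 3 * f t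

/-- SEMIB: such an `f` is `t ↦ s₀²/φ(s₀)³ · σ t` for a ring endomorphism `σ` -/
def SEMIB : Prop :=
  ∀ (K : Type v) [Field K] (φ : K →+* K), (∀ t, φ (φ t) ^ 3 = t) →
    ∀ f g : K → K, (∀ a b, f (a + b) = f a + f b) → f 1 ≠ 0 → (∀ s, s ≠ 0 → g s ≠ 0) →
      (∀ s t, s ≠ 0 → f (s ^ 2 / φ s ^ 3 * t) = g s ^ 2 / φ (g s) ^ 3 * f t) →
      ∃ s₀ : K, s₀ ≠ 0 ∧ ∃ σ : K →+* K, ∀ t, f t = s₀ ^ 2 / φ s₀ ^ 3 * σ t

/-- AUTK: the ring endomorphisms of `K` are the powers of the Frobenius -/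
def AUTK : Prop :=
  ∀ (K : Type v) [Field K] [Fintype K] (m : ℕ), Fintype.card K = 3 ^ (2 * m + 1) →
    ∀ σ : K →+* K, ∃ i : ℕ, i < 2 * m + 1 ∧ ∀ t, σ t = t ^ (3 ^ i)

/-- TRIVH: an automorphism stabilizing `U`, `H`, trivial on `U/A`, is trivial on `H` -/
def TRIVH : Prop :=
  ∀ (G : Type u) [Group G] (K : Type v) [Field K] [Fintype K] (m : ℕ)
    (φ : K →+* K) (x : K → K → K → G) (e : K → G), OPar G K m φ x e →
    ∀ α : MulAut G, (∀ t u v, ∃ u' v', α (x t u v) = x t u' v') →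
      (∀ s, s ≠ 0 → ∃ s', s' ≠ 0 ∧ α (e s) = e s') →
      ∀ s, s ≠ 0 → α (e s) = e s

/-- TRIVZ: an automorphism trivial on `U/A` fixes `Z = {x 0 0 v}` (the cubes) elementwise -/
def TRIVZ : Prop :=
  ∀ (G : Type u) [Group G] (K : Type v) [Field K] [Fintype K] (m : ℕ)
    (φ : K →+* K) (x : K → K → K → G) (e : K → G), OPar G K m φ x e →
    ∀ α : MulAut G, (∀ t u v, ∃ u' v', α (x t u v) = x t u' v') →
      ∀ v, α (x 0 0 v) = x 0 0 v

/-- TRIVA: ... and then `A = {x 0 u v}` elementwise -/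
def TRIVA : Prop :=
  ∀ (G : Type u) [Group G] (K : Type v) [Field K] [Fintype K] (m : ℕ)
    (φ : K →+* K) (x : K → K → K → G) (e : K → G), OPar G K m φ x e →
    ∀ α : MulAut G, (∀ t u v, ∃ u' v', α (x t u v) = x t u' v') →
      (∀ s, s ≠ 0 → α (e s) = e s) → (∀ v, α (x 0 0 v) = x 0 0 v) →
      ∀ u v, α (x 0 u v) = x 0 u v

/-- TRIVT: ... and then the `x t 0 0` -/
def TRIVT : Prop :=
  ∀ (G : Type u) [Group G] (K : Type v) [Field K] [Fintype K] (m : ℕ)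
    (φ : K →+* K) (x : K → K → K → G) (e : K → G), OPar G K m φ x e →
    ∀ α : MulAut G, (∀ t u v, ∃ u' v', α (x t u v) = x t u' v') →
      (∀ s, s ≠ 0 → α (e s) = e s) → (∀ u v, α (x 0 u v) = x 0 u v) →
      ∀ t, α (x t 0 0) = x t 0 0

/-! ## the assembly -/

/-- the situation after the Sylow analysis: `P = {x t u v}`, `H = {e s}`, `Q` the other Sylow
subgroup normalized by `H`, `F` the Frobenius automorphism -/
structure Sit (G : Type u) [Group G] (K : Type v) [Field K] [Fintype K] (m : ℕ)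
    (φ : K →+* K) (x : K → K → K → G) (e : K → G) (P Q : Sylow 3 G) (H : Subgroup G)
    (F : MulAut G) : Prop where
  par : OPar G K m φ x e
  memP : ∀ g : G, g ∈ (P : Subgroup G) ↔ ∃ t u v, g = x t u v
  memH : ∀ g : G, g ∈ H ↔ ∃ s, s ≠ 0 ∧ g = e s
  QP : Q ≠ P
  normQ : ∀ h ∈ H, ∀ u ∈ (Q : Subgroup G), h * u * h⁻¹ ∈ (Q : Subgroup G)
  norm : Subgroup.normalizer ((P : Subgroup G) : Set G) ⊓
    Subgroup.normalizer ((Q : Subgroup G) : Set G) = H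
  uniq : ∀ Q' : Sylow 3 G, Q' ≠ P →
    (∀ h ∈ H, ∀ u ∈ (Q' : Subgroup G), h * u * h⁻¹ ∈ (Q' : Subgroup G)) → Q' = Q
  rigid : ∀ α : MulAut G, α ∈ A0 (P : Subgroup G) (Q : Subgroup G) →
    (∀ u ∈ (P : Subgroup G), α u = u) → α = 1
  Fx : ∀ t u v, F (x t u v) = x (t ^ 3) (u ^ 3) (v ^ 3)
  Fe : ∀ s, s ≠ 0 → F (e s) = e (s ^ 3)

/-- ASMMEM: the automorphisms `conj (e s) ∘ F^i` stabilize `P` and `Q` -/
def ASMMEM : Prop :=
  ∀ (G : Type u) [Group G] [Finite G] (K : Type v) [Field K] [Fintype K] (m : ℕ)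
    (φ : K →+* K) (x : K → K → K → G) (e : K → G) (P Q : Sylow 3 G) (H : Subgroup G)
    (F : MulAut G), Sit G K m φ x e P Q H F →
    ∀ s, s ≠ 0 → ∀ i : ℕ, MulAut.conj (e s) * F ^ i ∈ A0 (P : Subgroup G) (Q : Subgroup G)

/-- ASMSURJ: every automorphism stabilizing `P` and `Q` is some `conj (e s) ∘ F^i` -/
def ASMSURJ : Prop :=
  ∀ (G : Type u) [Group G] [Finite G] (K : Type v) [Field K] [Fintype K] (m : ℕ)
    (φ : K →+* K) (x : K → K → K → G) (e : K → G) (P Q : Sylow 3 G) (H : Subgroup G)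
    (F : MulAut G), Sit G K m φ x e P Q H F →
    (∀ s, s ≠ 0 → ∀ i : ℕ, MulAut.conj (e s) * F ^ i ∈ A0 (P : Subgroup G) (Q : Subgroup G)) →
    ∀ α : MulAut G, α ∈ A0 (P : Subgroup G) (Q : Subgroup G) →
      ∃ s, s ≠ 0 ∧ ∃ i : ℕ, α = MulAut.conj (e s) * F ^ i

/-- CARDA0: hence `|A0| = (q - 1)(2m + 1)` -/
def CARDA0 : Prop :=
  ∀ (G : Type u) [Group G] [Finite G] (K : Type v) [Field K] [Fintype K] (m : ℕ)
    (φ : K →+* K) (x : K → K → K → G) (e : K → G) (P Q : Sylow 3 G) (H : Subgroup G)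
    (F : MulAut G), Sit G K m φ x e P Q H F →
    (∀ s, s ≠ 0 → ∀ i : ℕ, MulAut.conj (e s) * F ^ i ∈ A0 (P : Subgroup G) (Q : Subgroup G)) →
    (∀ α : MulAut G, α ∈ A0 (P : Subgroup G) (Q : Subgroup G) →
      ∃ s, s ≠ 0 ∧ ∃ i : ℕ, α = MulAut.conj (e s) * F ^ i) →
    Nat.card ↥(A0 (P : Subgroup G) (Q : Subgroup G)) = (3 ^ (2 * m + 1) - 1) * (2 * m + 1)

/-- the conclusion -/
def Top : Prop :=
  ∀ (G : Type u) [Group G] [Finite G] (K : Type v) [Field K] [Fintype K] (m : ℕ)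
    (φ : K →+* K) (x : K → K → K → G) (e : K → G), OPar G K m φ x e →
    Nat.card G = (3 ^ (2 * m + 1)) ^ 3 * (3 ^ (2 * m + 1) - 1) * ((3 ^ (2 * m + 1)) ^ 3 + 1) →
    IsSimpleGroup G → TI G 3 →
    ∀ F : MulAut G, (∀ t u v, F (x t u v) = x (t ^ 3) (u ^ 3) (v ^ 3)) →
      (∀ s, s ≠ 0 → F (e s) = e (s ^ 3)) →
      Nat.card (MulAut G ⧸ (MulAut.conj : G →* MulAut G).range) = 2 * m + 1

end Cfsg.Agent.Lib.Helper18.ReeOutStmt
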