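import Mathlib
import Cfsg.Agent.Lib.Helper35.Stem
import Cfsg.Agent.Lib.Helper18.ReeOutStmt

/-!
# The Schur multiplier of `²G₂(q)` is trivial: statement file (S2113)

Method of helper65's S2111 (Suzuki groups) on top of helper35's `Stem`: a finite stem extension
`σ : Γ → G` with a kernel element `z` of prime order `p` gives `z ∈ ⁅P̃, P̃⁆` for the preimage `P̃`
of a Sylow `p`-subgroup `P` (transfer).  For `p ≥ 5`, `P` is cyclic and `P̃` abelian.  For
`p = 2`, `P` is elementary abelian of order `8` with an element of order `7` of `N(P)` acting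
without fixed points: the commutator pairing of `P̃` is an invariant alternating form, hence
trivial.  For `p = 3`, `P = U = {x t u v}`: the commutator pairings between the layers of `U` are
biadditive maps on `K × K` invariant under the torus, hence trivial; this gives a normal
complement `A₁` to the kernel in the preimage of `A = {x 0 u v}` with `Ũ / A₁` abelian.

`cm σ hs x y` is the commutator of two lifts (copied from `Helper65.SzMult`).
-/

set_option autoImplicit false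

namespace Cfsg.Agent.Lib.Helper18.ReeMultStmt

open scoped commutatorElement

universe u v w

/-! ### commutators of lifts in a central extension (copy of `Helper65.SzMult`, section `Lift`) -/

section Lift

variable {Γ G : Type*} [Group Γ] [Group G] (σ : Γ →* G) (hs : Function.Surjective σ)

/-- a set-theoretic section -/
noncomputable def sec (x : G) : Γ := Classical.choose (hs x)

theorem sec_spec (x : G) : σ (sec σ hs x) = x := Classical.choose_spec (hs x)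

/-- the commutator of two lifts -/
noncomputable def cm (x y : G) : Γ := ⁅sec σ hs x, sec σ hs y⁆

theorem map_cm (x y : G) : σ (cm σ hs x y) = ⁅x, y⁆ := by
  unfold cm
  rw [map_commutatorElement, sec_spec, sec_spec]

theorem cm_inv (x y : G) : (cm σ hs x y)⁻¹ = cm σ hs y x := commutatorElement_inv _ _

theorem cm_mem_ker {x y : G} (h : x * y = y * x) : cm σ hs x y ∈ σ.ker := by
  rw [MonoidHom.mem_ker, map_cm, commutatorElement_eq_one_iff_mul_comm]
  exact h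

variable (hc : σ.ker ≤ Subgroup.center Γ)
include hc

theorem cm_eq (g h : Γ) : ⁅g, h⁆ = cm σ hs (σ g) (σ h) :=
  Cfsg.Agent.Lib.Helper35.Stem.commutator_eq_of_map_eq σ hc (sec_spec σ hs _).symm
    (sec_spec σ hs _).symm

theorem comm_of_cm (g h : Γ) (h1 : cm σ hs (σ g) (σ h) = 1) : g * h = h * g := by
  rw [← cm_eq σ hs hc] at h1
  exact commutatorElement_eq_one_iff_mul_comm.mp h1

theorem conj_cm (g : Γ) (x y : G) :
    g * cm σ hs x y * g⁻¹ = cm σ hs (σ g * x * (σ g)⁻¹) (σ g * y * (σ g)⁻¹) := by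
  have h1 : g * cm σ hs x y * g⁻¹ = ⁅g * sec σ hs x * g⁻¹, g * sec σ hs y * g⁻¹⁆ := by
    unfold cm
    simp only [commutatorElement_def]
    group
  rw [h1, cm_eq σ hs hc]
  simp only [map_mul, map_inv, sec_spec]

theorem cm_central {x y : G} (h : x * y = y * x) (g : Γ) :
    g * cm σ hs x y = cm σ hs x y * g :=
  Subgroup.mem_center_iff.mp (hc (cm_mem_ker σ hs h)) g

theorem cm_mul_left (x x' y : G) :
    cm σ hs (x * x') y = sec σ hs x * cm σ hs x' y * (sec σ hs x)⁻¹ * cm σ hs x y := by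
  have h1 : cm σ hs (x * x') y = ⁅sec σ hs x * sec σ hs x', sec σ hs y⁆ := by
    rw [cm_eq σ hs hc]
    simp only [map_mul, sec_spec]
  rw [h1]
  unfold cm
  simp only [commutatorElement_def]
  group

theorem cm_mul_right (x y y' : G) :
    cm σ hs x (y * y') = cm σ hs x y * (sec σ hs y * cm σ hs x y' * (sec σ hs y)⁻¹) := by
  have h1 : cm σ hs x (y * y') = ⁅sec σ hs x, sec σ hs y * sec σ hs y'⁆ := by
    rw [cm_eq σ hs hc]
    simp only [map_mul, sec_spec]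
  rw [h1]
  unfold cm
  simp only [commutatorElement_def]
  group

theorem cm_mul_left_c {x x' y : G} (h : x' * y = y * x') :
    cm σ hs (x * x') y = cm σ hs x y * cm σ hs x' y := by
  rw [cm_mul_left σ hs hc, cm_central σ hs hc h, mul_inv_cancel_right, cm_central σ hs hc h]

theorem cm_mul_right_c {x y y' : G} (h : x * y' = y' * x) :
    cm σ hs x (y * y') = cm σ hs x y * cm σ hs x y' := by
  rw [cm_mul_right σ hs hc, cm_central σ hs hc h, mul_inv_cancel_right]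

theorem cm_mul_left_one {x x' y : G} (h : cm σ hs x' y = 1) :
    cm σ hs (x * x') y = cm σ hs x y := by
  rw [cm_mul_left σ hs hc, h, mul_one, mul_inv_cancel, one_mul]

theorem cm_mul_right_one {x y y' : G} (h : cm σ hs x y' = 1) :
    cm σ hs x (y * y') = cm σ hs x y := by
  rw [cm_mul_right σ hs hc, h, mul_one, mul_inv_cancel, mul_one]

end Lift

/-! ### invariant biadditive maps -/

/-- EXR: an element `r ≠ 0` with `r⁸ ≠ 1` and `r³ ≠ r` -/
def EXR : Prop :=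
  ∀ (K : Type v) [Field K] [Fintype K] (m : ℕ), 1 ≤ m → Fintype.card K = 3 ^ (2 * m + 1) →
    ∃ r : K, r ≠ 0 ∧ r ^ 8 ≠ 1 ∧ r ^ 3 ≠ r

/-- SQFORM: a biadditive map invariant under simultaneous scaling by the nonzero squares is
trivial -/
def SQFORM : Prop :=
  ∀ (K : Type v) [Field K] (M : Type w) [CommGroup M] (B : K → K → M), (3 : K) = 0 →
    (∃ r : K, r ≠ 0 ∧ r ^ 8 ≠ 1) →
    (∀ a a' b, B (a + a') b = B a b * B a' b) → (∀ a b b', B a (b + b') = B a b * B a b') →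
    (∀ r a b, r ≠ 0 → B (r ^ 2 * a) (r ^ 2 * b) = B a b) → ∀ a b, B a b = 1

/-- MIXFORM: a biadditive map invariant under `(a, b) ↦ (s a, s²/φ(s)³ b)` is trivial -/
def MIXFORM : Prop :=
  ∀ (K : Type v) [Field K] (φ : K →+* K) (M : Type w) [CommGroup M] (B : K → K → M),
    (3 : K) = 0 → (∀ t, φ (φ t) ^ 3 = t) → (∃ s : K, s ^ 3 ≠ s) →
    (∀ a a' b, B (a + a') b = B a b * B a' b) → (∀ a b b', B a (b + b') = B a b * B a b') →
    (∀ s a b, s ≠ 0 → B (s * a) (s ^ 2 / φ s ^ 3 * b) = B a b) → ∀ a b, B a b = 1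

/-! ### the prime 3 -/

/-- a central extension `σ : Γ → G` of a group with the parametrization `OPar` -/
structure Ext (Γ : Type w) [Group Γ] (G : Type u) [Group G] (K : Type v) [Field K] [Fintype K]
    (m : ℕ) (φ : K →+* K) (x : K → K → K → G) (e : K → G) (σ : Γ →* G) : Prop where
  par : ReeOutStmt.OPar G K m φ x e
  surj : Function.Surjective σ
  cen : σ.ker ≤ Subgroup.center Γ

/-- the canonical lift of `x 0 u v` with respect to the torus element `e s₁`: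
the commutator of lifts of `e s₁` and of `x 0 (u/(ψ s₁ - 1)) (v/(s₁ - 1))`, `ψ s = φ(s)³/s` -/
noncomputable def lft {Γ : Type w} [Group Γ] {G : Type u} [Group G] {K : Type v} [Field K]
    (σ : Γ →* G) (hs : Function.Surjective σ) (φ : K →+* K) (x : K → K → K → G) (e : K → G)
    (s₁ u v : K) : Γ :=
  cm σ hs (e s₁) (x 0 (u / (φ s₁ ^ 3 / s₁ - 1)) (v / (s₁ - 1)))

/-- ZZ: lifts of `x 0 0 v`, `x 0 0 v'` commute -/
def ZZ : Prop :=
  ∀ (Γ : Type w) [Group Γ] (G : Type u) [Group G] (K : Type v) [Field K] [Fintype K] (m : ℕ)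
    (φ : K →+* K) (x : K → K → K → G) (e : K → G) (σ : Γ →* G) (E : Ext Γ G K m φ x e σ),
    ∀ v v', cm σ E.surj (x 0 0 v) (x 0 0 v') = 1

/-- ZU0: lifts of `x 0 0 v`, `x 0 u 0` commute -/
def ZU0 : Prop :=
  ∀ (Γ : Type w) [Group Γ] (G : Type u) [Group G] (K : Type v) [Field K] [Fintype K] (m : ℕ)
    (φ : K →+* K) (x : K → K → K → G) (e : K → G) (σ : Γ →* G) (E : Ext Γ G K m φ x e σ),
    ∀ v u, cm σ E.surj (x 0 0 v) (x 0 u 0) = 1

/-- ZT: lifts of `x 0 0 v`, `x t 0 0` commute -/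
def ZT : Prop :=
  ∀ (Γ : Type w) [Group Γ] (G : Type u) [Group G] (K : Type v) [Field K] [Fintype K] (m : ℕ)
    (φ : K →+* K) (x : K → K → K → G) (e : K → G) (σ : Γ →* G) (E : Ext Γ G K m φ x e σ),
    (∀ v v', cm σ E.surj (x 0 0 v) (x 0 0 v') = 1) →
    (∀ v u, cm σ E.surj (x 0 0 v) (x 0 u 0) = 1) →
    ∀ v t, cm σ E.surj (x 0 0 v) (x t 0 0) = 1

/-- ZCENT: lifts of `x 0 0 v` commute with the lifts of all `x t u v'` -/
def ZCENT : Prop :=
  ∀ (Γ : Type w) [Group Γ] (G : Type u) [Group G] (K : Type v) [Field K] [Fintype K] (m : ℕ)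
    (φ : K →+* K) (x : K → K → K → G) (e : K → G) (σ : Γ →* G) (E : Ext Γ G K m φ x e σ),
    (∀ v v', cm σ E.surj (x 0 0 v) (x 0 0 v') = 1) →
    (∀ v u, cm σ E.surj (x 0 0 v) (x 0 u 0) = 1) →
    (∀ v t, cm σ E.surj (x 0 0 v) (x t 0 0) = 1) →
    ∀ v t u v', cm σ E.surj (x 0 0 v) (x t u v') = 1

/-- U0U0: lifts of `x 0 u 0`, `x 0 u' 0` commute -/
def U0U0 : Prop :=
  ∀ (Γ : Type w) [Group Γ] (G : Type u) [Group G] (K : Type v) [Field K] [Fintype K] (m : ℕ)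
    (φ : K →+* K) (x : K → K → K → G) (e : K → G) (σ : Γ →* G) (E : Ext Γ G K m φ x e σ),
    ∀ u u', cm σ E.surj (x 0 u 0) (x 0 u' 0) = 1

/-- AAB: the preimage of `A = {x 0 u v}` is abelian -/
def AAB : Prop :=
  ∀ (Γ : Type w) [Group Γ] (G : Type u) [Group G] (K : Type v) [Field K] [Fintype K] (m : ℕ)
    (φ : K →+* K) (x : K → K → K → G) (e : K → G) (σ : Γ →* G) (E : Ext Γ G K m φ x e σ),
    (∀ v t u v', cm σ E.surj (x 0 0 v) (x t u v') = 1) →
    (∀ u u', cm σ E.surj (x 0 u 0) (x 0 u' 0) = 1) →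
    ∀ u v u' v', cm σ E.surj (x 0 u v) (x 0 u' v') = 1

/-- LMAP: `lft s₁ u v` is a lift of `x 0 u v` -/
def LMAP : Prop :=
  ∀ (Γ : Type w) [Group Γ] (G : Type u) [Group G] (K : Type v) [Field K] [Fintype K] (m : ℕ)
    (φ : K →+* K) (x : K → K → K → G) (e : K → G) (σ : Γ →* G) (E : Ext Γ G K m φ x e σ),
    ∀ s₁ : K, s₁ ≠ 0 → s₁ ^ 3 ≠ s₁ →
    ∀ u v, σ (lft σ E.surj φ x e s₁ u v) = x 0 u v

/-- LMUL: `lft s₁` is additive -/
def LMUL : Prop :=
  ∀ (Γ : Type w) [Group Γ] (G : Type u) [Group G] (K : Type v) [Field K] [Fintype K] (m : ℕ)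
    (φ : K →+* K) (x : K → K → K → G) (e : K → G) (σ : Γ →* G) (E : Ext Γ G K m φ x e σ),
    ∀ s₁ : K, s₁ ≠ 0 → s₁ ^ 3 ≠ s₁ →
    (∀ u v u' v', cm σ E.surj (x 0 u v) (x 0 u' v') = 1) →
    ∀ u v u' v', lft σ E.surj φ x e s₁ u v * lft σ E.surj φ x e s₁ u' v' =
      lft σ E.surj φ x e s₁ (u + u') (v + v')

/-- LCONJH: conjugation of `lft s₁ u v` by a lift of `e s` -/
def LCONJH : Prop :=
  ∀ (Γ : Type w) [Group Γ] (G : Type u) [Group G] (K : Type v) [Field K] [Fintype K] (m : ℕ)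
    (φ : K →+* K) (x : K → K → K → G) (e : K → G) (σ : Γ →* G) (E : Ext Γ G K m φ x e σ),
    ∀ s₁ : K, s₁ ≠ 0 →
    ∀ (γ : Γ) (s : K), s ≠ 0 → σ γ = e s →
    ∀ u v, γ * lft σ E.surj φ x e s₁ u v * γ⁻¹ = lft σ E.surj φ x e s₁ (φ s ^ 3 / s * u) (s * v)

/-- LCONJ: conjugation of `lft s₁ u v` by a lift of `x t u₀ v₀` -/
def LCONJ : Prop :=
  ∀ (Γ : Type w) [Group Γ] (G : Type u) [Group G] (K : Type v) [Field K] [Fintype K] (m : ℕ)
    (φ : K →+* K) (x : K → K → K → G) (e : K → G) (σ : Γ →* G) (E : Ext Γ G K m φ x e σ),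
    ∀ s₁ : K, s₁ ≠ 0 → s₁ ^ 3 ≠ s₁ →
    (∀ v t u v', cm σ E.surj (x 0 0 v) (x t u v') = 1) →
    (∀ u v u' v', cm σ E.surj (x 0 u v) (x 0 u' v') = 1) →
    ∀ (γ : Γ) (t u₀ v₀ : K), σ γ = x t u₀ v₀ →
    ∀ u v, γ * lft σ E.surj φ x e s₁ u v * γ⁻¹ = lft σ E.surj φ x e s₁ u (v + u * t)

/-- TT: the commutator of lifts of `x t 0 0`, `x t' 0 0` is a canonical lift -/
def TT : Prop :=
  ∀ (Γ : Type w) [Group Γ] (G : Type u) [Group G] (K : Type v) [Field K] [Fintype K] (m : ℕ)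
    (φ : K →+* K) (x : K → K → K → G) (e : K → G) (σ : Γ →* G) (E : Ext Γ G K m φ x e σ),
    ∀ s₁ : K, s₁ ≠ 0 → s₁ ^ 3 ≠ s₁ →
    (∀ v t u v', cm σ E.surj (x 0 0 v) (x t u v') = 1) →
    (∀ u v u' v', cm σ E.surj (x 0 u v) (x 0 u' v') = 1) →
    (∀ (γ : Γ) (t u₀ v₀ : K), σ γ = x t u₀ v₀ →
      ∀ u v, γ * lft σ E.surj φ x e s₁ u v * γ⁻¹ = lft σ E.surj φ x e s₁ u (v + u * t)) →
    ∀ t t', ∃ u v, cm σ E.surj (x t 0 0) (x t' 0 0) = lft σ E.surj φ x e s₁ u v

/-- FIN3: the kernel meets the commutator subgroup of the preimage of `U` trivially -/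
def FIN3 : Prop :=
  ∀ (Γ : Type w) [Group Γ] (G : Type u) [Group G] (K : Type v) [Field K] [Fintype K] (m : ℕ)
    (φ : K →+* K) (x : K → K → K → G) (e : K → G) (σ : Γ →* G) (E : Ext Γ G K m φ x e σ)
    (U : Subgroup G), (∀ g : G, g ∈ U ↔ ∃ t u v, g = x t u v) →
    ∀ s₁ : K, s₁ ≠ 0 → s₁ ^ 3 ≠ s₁ →
    (∀ v t u v', cm σ E.surj (x 0 0 v) (x t u v') = 1) →
    (∀ u v u' v', cm σ E.surj (x 0 u v) (x 0 u' v') = 1) →
    (∀ (γ : Γ) (t u₀ v₀ : K), σ γ = x t u₀ v₀ →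
      ∀ u v, γ * lft σ E.surj φ x e s₁ u v * γ⁻¹ = lft σ E.surj φ x e s₁ u (v + u * t)) →
    (∀ t t', ∃ u v, cm σ E.surj (x t 0 0) (x t' 0 0) = lft σ E.surj φ x e s₁ u v) →
    ∀ z ∈ σ.ker, z ∈ ⁅U.comap σ, U.comap σ⁆ → z = 1

/-! ### the prime 2 -/

/-- P2ELT: an element of order 7 normalizing the Sylow 2-subgroup, without fixed points -/
def P2ELT : Prop :=
  ∀ (G : Type u) [Group G] [Finite G] (S : Sylow 2 G), Nat.card ↥(S : Subgroup G) = 8 →
    (∀ x ∈ (S : Subgroup G), x * x = 1) →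
    Subgroup.centralizer ((S : Subgroup G) : Set G) = S →
    Nat.card ↥(Subgroup.normalizer ((S : Subgroup G) : Set G)) = 168 →
    ∃ n : G, n ^ 7 = 1 ∧ (∀ x ∈ (S : Subgroup G), n * x * n⁻¹ ∈ (S : Subgroup G)) ∧
      ∀ x ∈ (S : Subgroup G), n * x = x * n → x = 1

/-- P2FORM: an alternating bimultiplicative map on an elementary abelian group of order 8,
invariant under an element of order 7 acting without fixed points, is trivial -/
def P2FORM : Prop :=
  ∀ (G : Type u) [Group G] (S : Subgroup G) (M : Type w) [CommGroup M] (B : G → G → M) (n : G),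
    Nat.card ↥S = 8 → (∀ x ∈ S, x * x = 1) → n ^ 7 = 1 → (∀ x ∈ S, n * x * n⁻¹ ∈ S) →
    (∀ x ∈ S, n * x = x * n → x = 1) →
    (∀ x ∈ S, ∀ x' ∈ S, ∀ y ∈ S, B (x * x') y = B x y * B x' y) →
    (∀ x ∈ S, ∀ y ∈ S, ∀ y' ∈ S, B x (y * y') = B x y * B x y') →
    (∀ x ∈ S, B x x = 1) →
    (∀ x ∈ S, ∀ y ∈ S, B (n * x * n⁻¹) (n * y * n⁻¹) = B x y) →
    ∀ x ∈ S, ∀ y ∈ S, B x y = 1

/-- FIN2: the kernel meets the commutator subgroup of the preimage of `S` trivially -/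
def FIN2 : Prop :=
  ∀ (Γ : Type w) [Group Γ] (G : Type u) [Group G] (σ : Γ →* G), Function.Surjective σ →
    σ.ker ≤ Subgroup.center Γ →
    ∀ (S : Subgroup G) (n : G), Nat.card ↥S = 8 → (∀ x ∈ S, x * x = 1) → n ^ 7 = 1 →
    (∀ x ∈ S, n * x * n⁻¹ ∈ S) → (∀ x ∈ S, n * x = x * n → x = 1) →
    ∀ z ∈ σ.ker, z ∈ ⁅S.comap σ, S.comap σ⁆ → z = 1

end Cfsg.Agent.Lib.Helper18.ReeMultStmt
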