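import Mathlib

/-!
Specification file for S2787 (no quadratic action for `PSL₂(odd q)` and the small Ree groups).
Each `def X : Prop` is one independent piece; a piece file proves `theorem main : X` (or `main : A → B → X`
for an assembly).
-/

set_option autoImplicit false

namespace Cfsg.Agent.Lib.Helper18.QuadStmt

universe u v

/-- `[[1,1],[0,1]]`. -/
def xS (R : Type*) [CommRing R] : Matrix.SpecialLinearGroup (Fin 2) R :=
  ⟨!![1, 1; 0, 1], by simp [Matrix.det_fin_two]⟩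

/-- `[[0,1],[-1,0]]`. -/
def wS (R : Type*) [CommRing R] : Matrix.SpecialLinearGroup (Fin 2) R :=
  ⟨!![0, 1; -1, 0], by simp [Matrix.det_fin_two]⟩

/-- `-1 = [[-1,0],[0,-1]]`. -/
def nS (R : Type*) [CommRing R] : Matrix.SpecialLinearGroup (Fin 2) R :=
  ⟨!![-1, 0; 0, -1], by simp [Matrix.det_fin_two]⟩

/-- PLUMB: the conjugation action of `H / C_H(V)` on `V` as an injective hom into `MulAut V`. -/
def Plumb : Prop :=
  ∀ {G : Type u} [Group G] (V H : Subgroup G) (_hHV : H ≤ Subgroup.normalizer (V : Set G))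
    [_hn : ((Subgroup.centralizer (V : Set G)).subgroupOf H).Normal],
    ∃ φ : (↥H ⧸ (Subgroup.centralizer (V : Set G)).subgroupOf H) →* MulAut ↥V,
      Function.Injective φ ∧
      ∀ (h : ↥H) (v : ↥V),
        ((φ (QuotientGroup.mk' ((Subgroup.centralizer (V : Set G)).subgroupOf H) h) v : ↥V) : G)
          = (h : G) * (v : G) * (h : G)⁻¹

/-- QEXT: the quadratic hypothesis `[[V,A],A] = 1`, elementwise. -/
def QExt : Prop :=
  ∀ {G : Type u} [Group G] (V A : Subgroup G) (_hVc : ∀ x ∈ V, ∀ y ∈ V, x * y = y * x)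
    (_hquad : ⁅⁅V, A⁆, A⁆ = ⊥) (a : G) (_ha : a ∈ A) (_hn : ∀ v ∈ V, a * v * a⁻¹ ∈ V) (v : G) (_hv : v ∈ V),
    (a * (a * v * a⁻¹) * a⁻¹) * v = (a * v * a⁻¹) * (a * v * a⁻¹)

/-- TRIV: elementwise trivial action gives `[V,A] = 1`. -/
def Triv : Prop :=
  ∀ {G : Type u} [Group G] (V A : Subgroup G) (_h : ∀ a ∈ A, ∀ v ∈ V, a * v * a⁻¹ = v), ⁅V, A⁆ = ⊥

/-- ORDP: a quadratic automorphism of an abelian group of exponent `p` has `p`-th power `1`. -/
def OrdP : Prop :=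
  ∀ {W : Type u} [CommGroup W] (p : ℕ) (_hW : ∀ w : W, w ^ p = 1) (f : MulAut W)
    (_hq : ∀ v : W, f (f v) * v = f v * f v), f ^ p = 1

/-- RLEM: `SL₂(𝔽_p)` acting through `PSL₂(𝔽_p)` on an abelian group of exponent `p` (`p` odd) with
`x = [[1,1],[0,1]]` quadratic: then `w = [[0,1],[-1,0]]` or `x` acts trivially. -/
def RLem : Prop :=
  ∀ {W : Type u} [CommGroup W] (p : ℕ) [Fact p.Prime] (_hp : p ≠ 2) (_hW : ∀ w : W, w ^ p = 1)
    (θ : Matrix.SpecialLinearGroup (Fin 2) (ZMod p) →* MulAut W)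
    (_hneg : θ (nS (ZMod p)) = 1)
    (_hq : ∀ v : W, θ (xS (ZMod p)) (θ (xS (ZMod p)) v) * v
        = θ (xS (ZMod p)) v * θ (xS (ZMod p)) v),
    θ (wS (ZMod p)) = 1 ∨ θ (xS (ZMod p)) = 1

/-- PSLLIFT: an element of order `p` of `PSL₂(F)`, `char F = p` odd, lifts to an element of order `p`. -/
def PslLift : Prop :=
  ∀ {F : Type u} [Field F] (p : ℕ) [Fact p.Prime] [CharP F p] (_hp : p ≠ 2)
    (b : Matrix.ProjectiveSpecialLinearGroup (Fin 2) F) (_hb : b ≠ 1) (_hbp : b ^ p = 1),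
    ∃ g : Matrix.SpecialLinearGroup (Fin 2) F,
      QuotientGroup.mk' (Subgroup.center (Matrix.SpecialLinearGroup (Fin 2) F)) g = b ∧ g ^ p = 1 ∧ g ≠ 1

/-- SLHOM: an element of order `p` of `SL₂(F)`, `char F = p`, is the image of `[[1,1],[0,1]]` under a
hom `SL₂(𝔽_p) → SL₂(F)` (conjugate of the base change) sending `-1` to `-1` and `w` outside the centre. -/
def SlHom : Prop :=
  ∀ {F : Type u} [Field F] (p : ℕ) [Fact p.Prime] [CharP F p] (_hp : p ≠ 2)
    (g : Matrix.SpecialLinearGroup (Fin 2) F) (_hgp : g ^ p = 1) (_hg : g ≠ 1),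
    ∃ ρ : Matrix.SpecialLinearGroup (Fin 2) (ZMod p) →* Matrix.SpecialLinearGroup (Fin 2) F,
      ρ (xS (ZMod p)) = g ∧ ρ (nS (ZMod p)) = nS F ∧
      ρ (wS (ZMod p)) ∉ Subgroup.center (Matrix.SpecialLinearGroup (Fin 2) F)

/-- PSLSTR (assembly of PSLLIFT and SLHOM, plus `char F = p` from `|F| = p^n`). -/
def PslStr : Prop :=
  ∀ {F : Type u} [Field F] [Fintype F] (p : ℕ) [Fact p.Prime] (_hp : p ≠ 2) (n : ℕ)
    (_hF : Fintype.card F = p ^ n)
    (b : Matrix.ProjectiveSpecialLinearGroup (Fin 2) F) (_hb : b ≠ 1) (_hbp : b ^ p = 1),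
    ∃ ρ : Matrix.SpecialLinearGroup (Fin 2) (ZMod p) →* Matrix.ProjectiveSpecialLinearGroup (Fin 2) F,
      ρ (xS (ZMod p)) = b ∧ ρ (nS (ZMod p)) = 1 ∧ ρ (wS (ZMod p)) ≠ 1

/-- ABS595: abstract (action) form of the landed statement S0595: a finite group `Q` acting faithfully on a
finite abelian group `W` of exponent `p` (`p` odd), with an element `a` acting quadratically that lies in no
normal `p`-subgroup of `Q`, has non-abelian Sylow 2-subgroups. -/
def Abs595 : Prop :=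
  ∀ {W : Type u} {Q : Type v} [CommGroup W] [Finite W] [Group Q] [Finite Q] (p : ℕ) [Fact p.Prime]
    (_hp : p ≠ 2) (_hW : ∀ w : W, w ^ p = 1) (φ : Q →* MulAut W) (_hφ : Function.Injective φ) (a : Q)
    (_hq : ∀ v : W, φ a (φ a v) * v = φ a v * φ a v)
    (_hna : ∀ N : Subgroup Q, N.Normal → IsPGroup p N → a ∉ N) (T : Sylow 2 Q),
    ¬ IsMulCommutative T

end Cfsg.Agent.Lib.Helper18.QuadStmt
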