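import Cfsg.Agent.Lib.Helper18.HSimple
import Cfsg.Agent.Lib.Helper18.TabG2
import Cfsg.Agent.Lib.Helper18.TabB2
import Cfsg.Agent.Lib.Helper18.TabD4
import Cfsg.Agent.Lib.Helper18.TabF4
import Cfsg.Agent.Lib.Helper18.TabE6
import Cfsg.Agent.Lib.Helper18.TabE7
import Cfsg.Agent.Lib.Helper18.TabE8

set_option autoImplicit false

namespace Cfsg.Agent.Lib.Helper18.All

open Cfsg Cfsg.Lie Cfsg.Agent.Lib.Helper18.Fast Cfsg.Agent.Lib.Helper18.Facts

/-- Each of the seven tabulated data has function tables with the checked facts. -/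
theorem exists_fdata (D : ChevalleyDatum)
    (hD : D ∈ [chevG2, chevB2, chevD4, chevF4, chevE6, chevE7, chevE8]) :
    ∃ A : FData, Agrees A D ∧ SFacts A := by
  simp only [List.mem_cons, List.not_mem_nil, or_false] at hD
  rcases hD with rfl | rfl | rfl | rfl | rfl | rfl | rfl
  · exact ⟨_, TabG2.agrees, TabG2.sfacts⟩
  · exact ⟨_, TabB2.agrees, TabB2.sfacts⟩
  · exact ⟨_, TabD4.agrees, TabD4.sfacts⟩
  · exact ⟨_, TabF4.agrees, TabF4.sfacts⟩
  · exact ⟨_, TabE6.agrees, TabE6.sfacts⟩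
  · exact ⟨_, TabE7.agrees, TabE7.sfacts⟩
  · exact ⟨_, TabE8.agrees, TabE8.sfacts⟩

end Cfsg.Agent.Lib.Helper18.All
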