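import Mathlib
import Cfsg.Agent.Lib.Helper75.DCStmt

/-!
# Piece FIX of S4719: a normal subgroup of even order has an involution fixed by two commuting
involutions of the ambient group
-/

set_option autoImplicit false

namespace Cfsg.Agent.Lib.Helper18.DCFIX

universe u

/-- an involution of a finite set of even size has an even number of fixed points -/
theorem even_fix {α : Type u} [Finite α] (f : α → α) (hf : ∀ x, f (f x) = x)
    (h : Even (Nat.card α)) : Even (Nat.card {x // f x = x}) := by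
  classical
  haveI := Fintype.ofFinite α
  have h2 : ∀ F : Function.End α, (∀ x, F (F x) = x) → F ^ 2 ^ 1 = 1 := by
    intro F hF
    rw [pow_one, pow_two]
    funext x
    exact hF x
  haveI : Fact (Nat.Prime 2) := ⟨Nat.prime_two⟩
  have hmod := Equiv.Perm.card_fixedPoints_modEq (p := 2) (n := 1) (h2 f hf)
  have e : Nat.card {x // f x = x} = Fintype.card (Function.fixedPoints f) := by
    rw [Nat.card_eq_fintype_card]
    exact Fintype.card_congr (Equiv.refl _)
  rw [e, Nat.even_iff]
  rw [Nat.card_eq_fintype_card, Nat.even_iff] at h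
  have := hmod.symm
  unfold Nat.ModEq at this
  omega

/-- the same for a map preserving a predicate -/
theorem even_fix' {α : Type u} [Finite α] (P : α → Prop) (f : α → α) (hP : ∀ x, P x → P (f x))
    (hf : ∀ x, P x → f (f x) = x) (h : Even (Nat.card {x // P x})) :
    Even (Nat.card {x // P x ∧ f x = x}) := by
  have h1 := even_fix (α := {x // P x}) (fun x => ⟨f x.1, hP x.1 x.2⟩)
    (fun x => Subtype.ext (hf x.1 x.2)) h
  have e : Nat.card {x : {x // P x} // (⟨f x.1, hP x.1 x.2⟩ : {x // P x}) = x} =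
      Nat.card {x // P x ∧ f x = x} := by
    refine Nat.card_congr ((Equiv.subtypeEquivRight (fun x => ?_)).trans
      (Equiv.subtypeSubtypeEquivSubtypeInter P (fun x => f x = x)))
    exact Subtype.ext_iff
  rw [← e]
  exact h1

theorem main : Cfsg.Agent.Lib.Helper75.DCStmt.FIX.{u} := by
  intro Γ _ _ G v w hG hev hv hw hvw
  have hvinv : v⁻¹ = v := inv_eq_of_mul_eq_one_left hv
  have hwinv : w⁻¹ = w := inv_eq_of_mul_eq_one_left hw
  have h0 : Even (Nat.card {x : Γ // x ∈ G}) := hev
  have h1 := even_fix' (fun x : Γ => x ∈ G) (fun x => x⁻¹) (fun x hx => G.inv_mem hx)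
    (fun x _ => inv_inv x) h0
  have h2 := even_fix' (fun x : Γ => x ∈ G ∧ x⁻¹ = x) (fun x => v * x * v⁻¹)
    (fun x hx => ⟨hG.conj_mem x hx.1 v, by
      rw [mul_inv_rev, mul_inv_rev, inv_inv, hx.2, mul_assoc]⟩)
    (fun x _ => by
      rw [hvinv]
      calc v * (v * x * v) * v = (v * v) * x * (v * v) := by group
        _ = x := by rw [hv]; group) h1
  have h3 := even_fix' (fun x : Γ => (x ∈ G ∧ x⁻¹ = x) ∧ v * x * v⁻¹ = x) (fun x => w * x * w⁻¹)
    (fun x hx => ⟨⟨hG.conj_mem x hx.1.1 w, by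
      rw [mul_inv_rev, mul_inv_rev, inv_inv, hx.1.2, mul_assoc]⟩, by
      rw [hvinv, hwinv]
      have hx2 : v * x * v = x := by have := hx.2; rwa [hvinv] at this
      calc v * (w * x * w) * v = (v * w) * x * (w * v) := by group
        _ = (w * v) * x * (v * w) := by rw [hvw]
        _ = w * (v * x * v) * w := by group
        _ = w * x * w := by rw [hx2]⟩)
    (fun x _ => by
      rw [hwinv]
      calc w * (w * x * w) * w = (w * w) * x * (w * w) := by group
        _ = x := by rw [hw]; group) h2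
  -- the fixed set contains `1` and has even size
  set T := {x : Γ // ((x ∈ G ∧ x⁻¹ = x) ∧ v * x * v⁻¹ = x) ∧ w * x * w⁻¹ = x} with hT
  have one_mem : ((((1 : Γ) ∈ G ∧ (1 : Γ)⁻¹ = 1) ∧ v * 1 * v⁻¹ = 1) ∧ w * 1 * w⁻¹ = 1) := by
    refine ⟨⟨⟨G.one_mem, inv_one⟩, by group⟩, by group⟩
  haveI : Finite T := inferInstance
  haveI := Fintype.ofFinite T
  have hcard : 1 < Fintype.card T := by
    have hpos : 0 < Fintype.card T := Fintype.card_pos_iff.mpr ⟨⟨1, one_mem⟩⟩
    rw [Nat.card_eq_fintype_card, Nat.even_iff] at h3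
    omega
  obtain ⟨z, hz⟩ := Fintype.exists_ne_of_one_lt_card hcard (⟨1, one_mem⟩ : T)
  obtain ⟨z, ⟨⟨⟨hzG, hzinv⟩, hzv⟩, hzw⟩⟩ := z
  refine ⟨z, hzG, fun h => hz (Subtype.ext h), ?_, ?_, ?_⟩
  · calc z * z = z⁻¹ * z := by rw [hzinv]
      _ = 1 := inv_mul_cancel z
  · calc z * v = (v * z * v⁻¹) * v := by rw [hzv]
      _ = v * z := by group
  · calc z * w = (w * z * w⁻¹) * w := by rw [hzw]
      _ = w * z := by group

end Cfsg.Agent.Lib.Helper18.DCFIX
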