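import Mathlib
import Cfsg.Agent.Lib.Helper75.DCStmt

/-!
# Piece PGQ of S4719: centralizer of an involution modulo a normal subgroup of odd order
-/

set_option autoImplicit false

namespace Cfsg.Agent.Lib.Helper18.DCPGQ

universe u

/-- an involution of a finite set of odd size has a fixed point -/
theorem exists_fix {α : Type u} [Finite α] (f : α → α) (hf : ∀ x, f (f x) = x)
    (h : Odd (Nat.card α)) : ∃ x, f x = x := by
  classical
  haveI := Fintype.ofFinite α
  have h2 : ∀ F : Function.End α, (∀ x, F (F x) = x) → F ^ 2 ^ 1 = 1 := by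
    intro F hF
    rw [pow_one, pow_two]
    funext x
    exact hF x
  haveI : Fact (Nat.Prime 2) := ⟨Nat.prime_two⟩
  have hmod := Equiv.Perm.card_fixedPoints_modEq (p := 2) (n := 1) (h2 f hf)
  rw [Nat.card_eq_fintype_card, Nat.odd_iff] at h
  have h3 : 0 < Fintype.card (Function.fixedPoints f) := by
    have := hmod.symm
    unfold Nat.ModEq at this
    omega
  obtain ⟨⟨x, hx⟩⟩ := Fintype.card_pos_iff.mp h3
  exact ⟨x, hx⟩

theorem main : Cfsg.Agent.Lib.Helper75.DCStmt.PGQ.{u} := by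
  intro Γ _ _ Z _ P x hodd hZP hx
  classical
  have hxinv : x⁻¹ = x := inv_eq_of_mul_eq_one_left hx
  set Cb : Subgroup (Γ ⧸ Z) := P.map (QuotientGroup.mk' Z) ⊓
    Subgroup.centralizer ({QuotientGroup.mk' Z x} : Set (Γ ⧸ Z)) with hCb
  set C : Subgroup Γ := P ⊓ Subgroup.centralizer ({x} : Set Γ) with hC
  let φ : ↥C →* Γ ⧸ Z := (QuotientGroup.mk' Z).comp C.subtype
  have hmemC : ∀ g : Γ, g ∈ C ↔ g ∈ P ∧ x * g = g * x := by
    intro g
    rw [hC, Subgroup.mem_inf, Subgroup.mem_centralizer_iff]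
    constructor
    · rintro ⟨h1, h2⟩
      exact ⟨h1, h2 x (Set.mem_singleton x)⟩
    · rintro ⟨h1, h2⟩
      refine ⟨h1, fun y hy => ?_⟩
      rw [Set.mem_singleton_iff] at hy
      subst hy
      exact h2
  -- the range
  have hrange : φ.range = Cb := by
    ext y
    constructor
    · rintro ⟨g, rfl⟩
      have hg := (hmemC g).mp g.2
      rw [hCb, Subgroup.mem_inf]
      refine ⟨Subgroup.mem_map.mpr ⟨g, hg.1, rfl⟩, ?_⟩
      rw [Subgroup.mem_centralizer_iff]
      intro t ht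
      rw [Set.mem_singleton_iff] at ht
      subst ht
      show (QuotientGroup.mk' Z) x * (QuotientGroup.mk' Z) (g : Γ) =
        (QuotientGroup.mk' Z) (g : Γ) * (QuotientGroup.mk' Z) x
      rw [← map_mul, ← map_mul, hg.2]
    · intro hy
      rw [hCb, Subgroup.mem_inf] at hy
      obtain ⟨hy1, hy2⟩ := hy
      obtain ⟨g, hgP, rfl⟩ := Subgroup.mem_map.mp hy1
      have hc := Subgroup.mem_centralizer_iff.mp hy2 _ (Set.mem_singleton _)
      have h5 : (QuotientGroup.mk' Z) (x * g) = (QuotientGroup.mk' Z) (g * x) := by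
        rw [map_mul, map_mul]; exact hc
      have h3 : (x * g)⁻¹ * (g * x) ∈ Z := QuotientGroup.eq.mp h5
      -- `z₀ = g⁻¹ x g x⁻¹ ∈ Z`
      have hz0 : g⁻¹ * x * g * x⁻¹ ∈ Z := by
        have h4 : g⁻¹ * x * g * x⁻¹ = (x * g)⁻¹ * (g * x) := by
          rw [hxinv]
          calc g⁻¹ * x * g * x = g⁻¹ * x⁻¹ * g * x := by rw [hxinv]
            _ = (x * g)⁻¹ * (g * x) := by group
        rw [h4]; exact h3
      -- the involution on `Z`
      let f : ↥Z → ↥Z := fun z =>
        ⟨(g⁻¹ * x * g * x⁻¹) * (x * z * x⁻¹), Z.mul_mem hz0 (Subgroup.Normal.conj_mem ‹Z.Normal› z z.2 x)⟩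
      have hf : ∀ z, f (f z) = z := by
        intro z
        apply Subtype.ext
        simp only [f]
        rw [hxinv]
        calc g⁻¹ * x * g * x * (x * (g⁻¹ * x * g * x * (x * (z : Γ) * x)) * x)
            = g⁻¹ * x * g * (x * x) * g⁻¹ * x * g * (x * x) * (z : Γ) * (x * x) := by group
          _ = g⁻¹ * x * g * 1 * g⁻¹ * x * g * 1 * (z : Γ) * 1 := by rw [hx]
          _ = g⁻¹ * (x * x) * g * (z : Γ) := by group
          _ = g⁻¹ * 1 * g * (z : Γ) := by rw [hx]
          _ = (z : Γ) := by group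
      obtain ⟨z, hz⟩ := exists_fix f hf hodd
      have hz' : (g⁻¹ * x * g * x⁻¹) * (x * (z : Γ) * x⁻¹) = (z : Γ) := congrArg Subtype.val hz
      have hcomm : x * (g * (z : Γ)) = (g * (z : Γ)) * x := by
        calc x * (g * (z : Γ)) = g * ((g⁻¹ * x * g * x⁻¹) * (x * (z : Γ) * x⁻¹)) * x := by group
          _ = (g * (z : Γ)) * x := by rw [hz']
      have hmem : g * (z : Γ) ∈ C := (hmemC _).mpr ⟨P.mul_mem hgP (hZP z.2), hcomm⟩
      refine ⟨⟨g * (z : Γ), hmem⟩, ?_⟩
      show (QuotientGroup.mk' Z) (g * (z : Γ)) = (QuotientGroup.mk' Z) g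
      apply QuotientGroup.eq.mpr
      have h6 : (g * (z : Γ))⁻¹ * g = (z : Γ)⁻¹ := by group
      rw [h6]; exact Z.inv_mem z.2
  -- the kernel
  have hker : φ.ker = (Z ⊓ Subgroup.centralizer ({x} : Set Γ)).subgroupOf C := by
    ext g
    rw [MonoidHom.mem_ker, Subgroup.mem_subgroupOf, Subgroup.mem_inf]
    have hg := (hmemC g).mp g.2
    constructor
    · intro h
      have h1 : (g : Γ) ∈ Z := (QuotientGroup.eq_one_iff (g : Γ)).mp h
      refine ⟨h1, Subgroup.mem_centralizer_iff.mpr (fun y hy => ?_)⟩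
      rw [Set.mem_singleton_iff] at hy
      subst hy
      exact hg.2
    · rintro ⟨h1, _⟩
      exact (QuotientGroup.eq_one_iff (g : Γ)).mpr h1
  have hle : Z ⊓ Subgroup.centralizer ({x} : Set Γ) ≤ C := by
    rw [hC]
    exact inf_le_inf_right _ hZP
  have h1 : Nat.card ↥C = Nat.card (↥C ⧸ φ.ker) * Nat.card ↥φ.ker :=
    Subgroup.card_eq_card_quotient_mul_card_subgroup φ.ker
  have h2 : Nat.card (↥C ⧸ φ.ker) = Nat.card ↥Cb := by
    rw [← hrange]
    exact Nat.card_congr (QuotientGroup.quotientKerEquivRange φ).toEquiv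
  have h3 : Nat.card ↥φ.ker = Nat.card ↥(Z ⊓ Subgroup.centralizer ({x} : Set Γ)) := by
    rw [hker]
    exact Nat.card_congr (Subgroup.subgroupOfEquivOfLe hle).toEquiv
  rw [h1, h2, h3]

end Cfsg.Agent.Lib.Helper18.DCPGQ
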