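import Mathlib
import Cfsg.Agent.Lib.Helper75.DCStmt

/-!
# Piece PICK of S4719: a subgroup with at least three elements has two distinct nontrivial elements
-/

set_option autoImplicit false

namespace Cfsg.Agent.Lib.Helper18.DCPICK

universe u

theorem main : Cfsg.Agent.Lib.Helper75.DCStmt.PICK.{u} := by
  intro G _ E h3
  haveI : Finite ↥E := Nat.finite_of_card_ne_zero (by omega)
  haveI := Fintype.ofFinite ↥E
  have h : 2 < Fintype.card ↥E := by
    rw [← Nat.card_eq_fintype_card]; omega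
  obtain ⟨a, b, c, hab, hac, hbc⟩ := Fintype.two_lt_card_iff.mp h
  have key : ∀ x y : ↥E, x ≠ y → x ≠ 1 → y ≠ 1 →
      ∃ v ∈ E, ∃ w ∈ E, v ≠ 1 ∧ w ≠ 1 ∧ v ≠ w := by
    intro x y hxy hx hy
    refine ⟨x, x.2, y, y.2, ?_, ?_, ?_⟩
    · exact fun h => hx (Subtype.ext h)
    · exact fun h => hy (Subtype.ext h)
    · exact fun h => hxy (Subtype.ext h)
  by_cases ha : a = 1
  · subst ha
    exact key b c hbc (Ne.symm hab) (Ne.symm hac)
  · by_cases hb : b = 1
    · subst hb
      exact key a c hac ha (Ne.symm hbc)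
    · exact key a b hab ha hb

end Cfsg.Agent.Lib.Helper18.DCPICK
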