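import Mathlib
import Cfsg.Agent.Lib.Helper75.DCStmt

/-!
# Piece QC of S4719: centralizers do not grow in quotients
-/

set_option autoImplicit false

namespace Cfsg.Agent.Lib.Helper18.DCQC

universe u

theorem main : Cfsg.Agent.Lib.Helper75.DCStmt.QC.{u} := by
  intro Γ _ _ T _ G x hTG
  classical
  set Cb : Subgroup (Γ ⧸ T) := G.map (QuotientGroup.mk' T) ⊓
    Subgroup.centralizer ({QuotientGroup.mk' T x} : Set (Γ ⧸ T)) with hCb
  set C : Subgroup Γ := G ⊓ Subgroup.centralizer ({x} : Set Γ) with hC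
  set S : Subgroup Γ := Cb.comap (QuotientGroup.mk' T) with hS
  -- (1) `|S| = |C̄| * |T|`
  have h1 : Nat.card S = Nat.card Cb * Nat.card T := by
    have hsurj : Function.Surjective (QuotientGroup.mk' T) := QuotientGroup.mk'_surjective T
    have hidx : S.index = Cb.index := Subgroup.index_comap_of_surjective Cb hsurj
    have e1 := Subgroup.card_mul_index S
    have e2 := Subgroup.card_mul_index Cb
    have e3 : Nat.card Γ = Nat.card (Γ ⧸ T) * Nat.card T :=
      Subgroup.card_eq_card_quotient_mul_card_subgroup T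
    have hpos : 0 < Cb.index := Nat.pos_of_ne_zero Subgroup.index_ne_zero_of_finite
    have : Nat.card S * Cb.index = (Nat.card Cb * Nat.card T) * Cb.index := by
      rw [← hidx, e1, e3, ← e2, hidx]; ring
    exact Nat.eq_of_mul_eq_mul_right hpos this
  -- membership in `S`
  have hmk : ∀ g : Γ, g ∈ S → g ∈ G ∧ g⁻¹ * x⁻¹ * g * x ∈ T := by
    intro g hg
    rw [hS, Subgroup.mem_comap, hCb, Subgroup.mem_inf] at hg
    obtain ⟨hg1, hg2⟩ := hg
    constructor
    · obtain ⟨h, hh, hhg⟩ := Subgroup.mem_map.mp hg1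
      have h3 : h⁻¹ * g ∈ T := QuotientGroup.eq.mp hhg
      have h4 : g = h * (h⁻¹ * g) := by group
      rw [h4]; exact G.mul_mem hh (hTG h3)
    · have hc := Subgroup.mem_centralizer_iff.mp hg2 _ (Set.mem_singleton _)
      have h5 : (QuotientGroup.mk' T) (x * g) = (QuotientGroup.mk' T) (g * x) := by
        rw [map_mul, map_mul]; exact hc
      have h3 : (x * g)⁻¹ * (g * x) ∈ T := QuotientGroup.eq.mp h5
      have h4 : g⁻¹ * x⁻¹ * g * x = (x * g)⁻¹ * (g * x) := by group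
      rw [h4]; exact h3
  -- (2) `|S| ≤ |T| * |C|`
  let φ : ↥S → ↥T := fun g => ⟨(g : Γ)⁻¹ * x⁻¹ * g * x, (hmk g g.2).2⟩
  let c : ↥T → ↥S := fun t => if h : ∃ s : ↥S, φ s = t then Classical.choose h else 1
  have hc : ∀ g : ↥S, φ (c (φ g)) = φ g := by
    intro g
    have h : ∃ s : ↥S, φ s = φ g := ⟨g, rfl⟩
    simp only [c, dif_pos h]
    exact Classical.choose_spec h
  have hmemC : ∀ g : ↥S, ((c (φ g) : ↥S) : Γ) * (g : Γ)⁻¹ ∈ C := by
    intro g
    have e := congrArg Subtype.val (hc g)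
    simp only [φ] at e
    rw [hC, Subgroup.mem_inf]
    refine ⟨G.mul_mem (hmk _ (c (φ g)).2).1 (G.inv_mem (hmk _ g.2).1), ?_⟩
    rw [Subgroup.mem_centralizer_iff]
    intro y hy
    rw [Set.mem_singleton_iff] at hy
    subst hy
    generalize ((c (φ g) : ↥S) : Γ) = a at e ⊢
    generalize (g : Γ) = b at e ⊢
    have e' : a⁻¹ * y⁻¹ * a = b⁻¹ * y⁻¹ * b := mul_right_cancel e
    have e2 : y⁻¹ * (a * b⁻¹) = (a * b⁻¹) * y⁻¹ := by
      calc y⁻¹ * (a * b⁻¹) = a * (a⁻¹ * y⁻¹ * a) * b⁻¹ := by group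
        _ = a * (b⁻¹ * y⁻¹ * b) * b⁻¹ := by rw [e']
        _ = (a * b⁻¹) * y⁻¹ := by group
    calc y * (a * b⁻¹) = y * ((a * b⁻¹) * y⁻¹) * y := by group
      _ = y * (y⁻¹ * (a * b⁻¹)) * y := by rw [e2]
      _ = (a * b⁻¹) * y := by group
  let ψ : ↥S → ↥T × ↥C := fun g => (φ g, ⟨_, hmemC g⟩)
  have hinj : Function.Injective ψ := by
    intro g g' h
    have h1 : φ g = φ g' := congrArg Prod.fst h
    have h2 := congrArg (fun p : ↥T × ↥C => ((p.2 : ↥C) : Γ)) h
    simp only [ψ] at h2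
    rw [h1] at h2
    have h3 := mul_left_cancel h2
    exact Subtype.ext (inv_injective h3)
  have h2 : Nat.card ↥S ≤ Nat.card ↥T * Nat.card ↥C := by
    rw [← Nat.card_prod]
    exact Nat.card_le_card_of_injective ψ hinj
  have hTpos : 0 < Nat.card ↥T := Nat.card_pos
  rw [h1, mul_comm (Nat.card ↥T)] at h2
  exact Nat.le_of_mul_le_mul_right h2 hTpos

end Cfsg.Agent.Lib.Helper18.DCQC
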