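import Cfsg.Agent.Lib.Helper18.QuadStmt

/-! S2787 piece PLUMB: the conjugation action of `H / C_H(V)` on `V`. -/

set_option autoImplicit false

namespace Cfsg.Agent.Lib.Helper18.Q87PLUMB

universe u

theorem main : Cfsg.Agent.Lib.Helper18.QuadStmt.Plumb.{u} := by
  intro G _ V H hHV hn
  have hmem : ∀ (h : ↥H) (v : ↥V), (h : G) * v * (h : G)⁻¹ ∈ V := fun h v =>
    (Subgroup.mem_normalizer_iff.mp (hHV h.2) v).mp v.2
  have hmem' : ∀ (h : ↥H) (v : ↥V), (h : G)⁻¹ * v * (h : G) ∈ V := fun h v => by
    have := (Subgroup.mem_normalizer_iff.mp (hHV (H.inv_mem h.2)) v).mp v.2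
    simpa using this
  let κ : ↥H →* MulAut ↥V :=
    { toFun := fun h =>
        { toFun := fun v => ⟨(h : G) * v * (h : G)⁻¹, hmem h v⟩
          invFun := fun v => ⟨(h : G)⁻¹ * v * (h : G), hmem' h v⟩
          left_inv := fun v => Subtype.ext (by simp [mul_assoc])
          right_inv := fun v => Subtype.ext (by simp [mul_assoc])
          map_mul' := fun v w => Subtype.ext (by simp [mul_assoc]) }
      map_one' := by ext v; simp
      map_mul' := fun h k => by ext v; simp [mul_assoc] }
  have hκ : ∀ (h : ↥H) (v : ↥V), ((κ h v : ↥V) : G) = (h : G) * v * (h : G)⁻¹ := fun h v => rfl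
  have hker : ∀ h : ↥H, h ∈ (Subgroup.centralizer (V : Set G)).subgroupOf H ↔ κ h = 1 := by
    intro h
    rw [Subgroup.mem_subgroupOf, Subgroup.mem_centralizer_iff]
    constructor
    · intro hc
      ext v
      rw [hκ, ← hc v v.2]
      simp
    · intro h1 g hg
      have h2 := hκ h ⟨g, hg⟩
      rw [h1] at h2
      simp only [MulAut.one_apply] at h2
      calc g * (h : G) = ((h : G) * g * (h : G)⁻¹) * (h : G) := by rw [← h2]
        _ = (h : G) * g := by group
  refine ⟨QuotientGroup.lift _ κ (fun h hh => (hker h).mp hh), ?_, ?_⟩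
  · rw [injective_iff_map_eq_one]
    intro x
    induction x using QuotientGroup.induction_on with
    | H h =>
      intro hx
      rw [QuotientGroup.eq_one_iff]
      exact (hker h).mpr hx
  · intro h v
    rfl

end Cfsg.Agent.Lib.Helper18.Q87PLUMB
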