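import Cfsg.Agent.Lib.Helper18.QuadStmt

/-! S2787 piece PSLSTR: assembly of PSLLIFT and SLHOM. -/

set_option autoImplicit false

namespace Cfsg.Agent.Lib.Helper18.Q87PSLSTR

open Cfsg.Agent.Lib.Helper18.QuadStmt

universe u

theorem main (h1 : PslLift.{u}) (h2 : SlHom.{u}) : PslStr.{u} := by
  intro F _ _ p _ hp n hF b hb hbp
  haveI : CharP F p := charP_of_card_eq_prime_pow hF
  obtain ⟨g, hg, hgp, hg1⟩ := h1 p hp b hb hbp
  obtain ⟨ρ, hρx, hρn, hρw⟩ := h2 p hp g hgp hg1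
  refine ⟨(QuotientGroup.mk' (Subgroup.center (Matrix.SpecialLinearGroup (Fin 2) F))).comp ρ,
    ?_, ?_, ?_⟩
  · rw [MonoidHom.comp_apply, hρx]
    exact hg
  · rw [MonoidHom.comp_apply, hρn, QuotientGroup.mk'_apply, QuotientGroup.eq_one_iff,
      Matrix.SpecialLinearGroup.mem_center_iff]
    refine ⟨-1, by simp, ?_⟩
    ext i j
    fin_cases i <;> fin_cases j <;> simp [nS]
  · rw [MonoidHom.comp_apply, QuotientGroup.mk'_apply]
    intro h
    exact hρw ((QuotientGroup.eq_one_iff _).mp h)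

end Cfsg.Agent.Lib.Helper18.Q87PSLSTR
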