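import Cfsg.Agent.Lib.Helper18.QuadStmt
import Cfsg.Agent.Lib.Helper18.ReeG
import Cfsg.Agent.Lib.Helper18.Ree24
import Cfsg.Agent.S1073
import Cfsg.Prelude.Def_LocalEven
import Cfsg.Prelude.Def_LieTwisted

/-!
S2787: assembly from the pieces of `QuadStmt` and the Ree facts (Sylow 2-subgroups of exponent 2, simplicity).
-/

set_option autoImplicit false

namespace Cfsg.Agent.Lib.Helper18.Quad87

open Cfsg.Agent.Lib.Helper18.QuadStmt

open scoped IsMulCommutative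

universe u

/-- Sylow 2-subgroups of the small Ree groups are commutative. -/
theorem ree_sylow2_comm {K : Type} [Field K] [Fintype K] {m : ℕ}
    (hK : Fintype.card K = 3 ^ (2 * m + 1)) (T : Sylow 2 ↥(Cfsg.Lie.twistedG2 K (3 ^ m))) :
    IsMulCommutative ↥T := by
  haveI := Cfsg.Agent.Lib.Helper18.Ree4.charP3 hK
  obtain ⟨φ, hφ, h3⟩ := Cfsg.Agent.Lib.Helper18.Ree4.exists_theta hK
  obtain ⟨Sg⟩ := Cfsg.Agent.Lib.Helper18.Ree13.exists_sig φ
    (Cfsg.Agent.Lib.Helper18.ReeG.graph_of_card hK)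
  have h2 := (Cfsg.Agent.Lib.Helper18.Ree24.sylow2 hφ h3 hK rfl Sg T).2
  refine ⟨⟨fun x y => ?_⟩⟩
  have hx : x * x = 1 := Subtype.ext (h2 x.1 x.2)
  have hy : y * y = 1 := Subtype.ext (h2 y.1 y.2)
  have hxy : (x * y) * (x * y) = 1 := Subtype.ext (h2 (x * y).1 (x * y).2)
  have e1 : x * ((x * y) * (x * y)) * y = (x * x) * (y * x) * (y * y) := by group
  rw [hxy, hx, hy] at e1
  simpa using e1

/-- A non-trivial element of a small Ree group (`m ≥ 1`) lies in no normal 3-subgroup. -/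
theorem ree_no_normal3 {K : Type} [Field K] [Fintype K] {m : ℕ} (hm : 1 ≤ m)
    (hK : Fintype.card K = 3 ^ (2 * m + 1)) (N : Subgroup ↥(Cfsg.Lie.twistedG2 K (3 ^ m)))
    (hN : N.Normal) (hN3 : IsPGroup 3 N) (x : ↥(Cfsg.Lie.twistedG2 K (3 ^ m))) (hx : x ≠ 1) :
    x ∉ N := by
  haveI := (Cfsg.Agent.S1073.result hm hK).1
  intro hxN
  rcases hN.eq_bot_or_eq_top with h | h
  · rw [h, Subgroup.mem_bot] at hxN
    exact hx hxN
  · haveI := Cfsg.Agent.Lib.Helper18.Ree4.charP3 hK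
    obtain ⟨φ, hφ, h3⟩ := Cfsg.Agent.Lib.Helper18.Ree4.exists_theta hK
    obtain ⟨Sg⟩ := Cfsg.Agent.Lib.Helper18.Ree13.exists_sig φ
      (Cfsg.Agent.Lib.Helper18.ReeG.graph_of_card hK)
    obtain ⟨T⟩ : Nonempty (Sylow 2 ↥(Cfsg.Lie.twistedG2 K (3 ^ m))) := inferInstance
    obtain ⟨hc, h2⟩ := Cfsg.Agent.Lib.Helper18.Ree24.sylow2 hφ h3 hK rfl Sg T
    have hnt : Nontrivial ↥(T : Subgroup ↥(Cfsg.Lie.twistedG2 K (3 ^ m))) := by
      haveI : Finite ↥(T : Subgroup ↥(Cfsg.Lie.twistedG2 K (3 ^ m))) := inferInstance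
      rw [← Finite.one_lt_card_iff_nontrivial, hc]; norm_num
    obtain ⟨y, hy⟩ := exists_ne (1 : ↥(T : Subgroup ↥(Cfsg.Lie.twistedG2 K (3 ^ m))))
    have hy2 : (y : ↥(Cfsg.Lie.twistedG2 K (3 ^ m))) * y = 1 := h2 y.1 y.2
    have hy1 : (y : ↥(Cfsg.Lie.twistedG2 K (3 ^ m))) ≠ 1 := fun h => hy (Subtype.ext h)
    obtain ⟨k, hk⟩ := hN3 ⟨(y : ↥(Cfsg.Lie.twistedG2 K (3 ^ m))), by rw [h]; trivial⟩
    have hk' : (y : ↥(Cfsg.Lie.twistedG2 K (3 ^ m))) ^ (3 ^ k) = 1 := by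
      have := congrArg Subtype.val hk
      simpa using this
    have ho2 : orderOf (y : ↥(Cfsg.Lie.twistedG2 K (3 ^ m))) = 2 :=
      orderOf_eq_prime (by rw [pow_two]; exact hy2) hy1
    have hd : 2 ∣ 3 ^ k := by rw [← ho2]; exact orderOf_dvd_of_pow_eq_one hk'
    have : 2 ∣ 3 := Nat.Prime.dvd_of_dvd_pow Nat.prime_two hd
    omega

/-- S2787 from the pieces. -/
theorem final_of (hPl : Plumb.{u}) (hQE : QExt.{u}) (hTr : Triv.{u}) (hOP : OrdP.{u}) (hRL : RLem.{u})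
    (hPS : PslStr.{0}) (hAb : Abs595.{u, 0})
    {G : Type u} [Group G] [Finite G] {p : ℕ} [Fact p.Prime] (V H : Subgroup G)
    (hV : Cfsg.IsElementaryAbelian p V) (hHV : H ≤ Subgroup.normalizer (V : Set G))
    [hn : ((Subgroup.centralizer (V : Set G)).subgroupOf H).Normal]
    (hq : (∃ (F : Type) (_ : Field F) (_ : Fintype F) (n : ℕ), Fintype.card F = p ^ n ∧
        Odd (Fintype.card F) ∧
        Nonempty (↥H ⧸ (Subgroup.centralizer (V : Set G)).subgroupOf H ≃*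
          Matrix.ProjectiveSpecialLinearGroup (Fin 2) F)) ∨
      (p = 3 ∧ Cfsg.Lie.IsoRee (↥H ⧸ (Subgroup.centralizer (V : Set G)).subgroupOf H)))
    (A : Subgroup G) (hA : A ≤ H) (hquad : ⁅⁅V, A⁆, A⁆ = ⊥) : ⁅V, A⁆ = ⊥ := by
  classical
  haveI : IsMulCommutative ↥V := hV.1
  obtain ⟨φ, hφinj, hφ⟩ := hPl V H hHV
  have hVc : ∀ x ∈ V, ∀ y ∈ V, x * y = y * x := by
    intro x hx y hy
    have h := hV.1.is_comm.comm (⟨x, hx⟩ : ↥V) ⟨y, hy⟩
    exact congrArg Subtype.val h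
  by_contra hne
  have hex : ∃ a : G, ∃ ha : a ∈ A,
      φ (QuotientGroup.mk' ((Subgroup.centralizer (V : Set G)).subgroupOf H) ⟨a, hA ha⟩) ≠ 1 := by
    by_contra hall
    push Not at hall
    apply hne
    apply hTr V A
    intro a ha v hv
    have h1 := hall a ha
    have h2 := hφ ⟨a, hA ha⟩ ⟨v, hv⟩
    rw [h1] at h2
    simpa using h2.symm
  obtain ⟨a, ha, hane⟩ := hex
  generalize hā : QuotientGroup.mk' ((Subgroup.centralizer (V : Set G)).subgroupOf H) ⟨a, hA ha⟩ = ā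
    at hane
  have hφa : ∀ v : ↥V, ((φ ā v : ↥V) : G) = a * (v : G) * a⁻¹ := by
    intro v
    rw [← hā]
    exact hφ ⟨a, hA ha⟩ v
  have hnorm : ∀ v ∈ V, a * v * a⁻¹ ∈ V := fun v hv => by
    have := hφa ⟨v, hv⟩
    rw [← this]
    exact (φ ā ⟨v, hv⟩).2
  have hquadφ : ∀ v : ↥V, φ ā (φ ā v) * v = φ ā v * φ ā v := by
    intro v
    apply Subtype.ext
    simp only [Subgroup.coe_mul]
    rw [hφa (φ ā v), hφa v]
    exact hQE V A hVc hquad a ha hnorm v v.2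
  have hW : ∀ w : ↥V, w ^ p = 1 := fun w => Subtype.ext (by simpa using hV.2 w w.2)
  have hāne : ā ≠ 1 := fun h => hane (by rw [h, map_one])
  rcases hq with ⟨F, _, _, n, hF, hodd, ⟨e⟩⟩ | ⟨hp3, K, _, _, m, hm, hK, ⟨e⟩⟩
  · -- the `PSL₂` case
    have hp2 : p ≠ 2 := by
      rintro rfl
      rw [hF] at hodd
      rcases Nat.eq_zero_or_pos n with rfl | hn0
      · have := Fintype.one_lt_card (α := F)
        simp at hF
        omega
      · exact absurd hodd (Nat.not_odd_iff_even.mpr (Nat.even_pow.mpr ⟨even_two, hn0.ne'⟩))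
    have hfp : (φ ā) ^ p = 1 := hOP p hW (φ ā) hquadφ
    have hāp : ā ^ p = 1 := hφinj (by rw [map_pow, hfp, map_one])
    obtain ⟨ρ, hρx, hρn, hρw⟩ := hPS p hp2 n hF (e ā)
      (fun h => hāne (by simpa using h)) (by rw [← map_pow, hāp, map_one])
    let θ : Matrix.SpecialLinearGroup (Fin 2) (ZMod p) →* MulAut ↥V :=
      φ.comp (e.symm.toMonoidHom.comp ρ)
    have hθx : θ (xS (ZMod p)) = φ ā := by simp [θ, hρx]
    have hθn : θ (nS (ZMod p)) = 1 := by simp [θ, hρn]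
    rcases hRL p hp2 hW θ hθn (by rw [hθx]; exact hquadφ) with h | h
    · apply hρw
      have h1 : e.symm (ρ (wS (ZMod p))) = 1 := hφinj (by simpa [θ] using h)
      simpa using h1
    · exact hane (by rw [← hθx]; exact h)
  · -- the Ree case
    subst hp3
    let φ' : ↥(Cfsg.Lie.twistedG2 K (3 ^ m)) →* MulAut ↥V := φ.comp e.symm.toMonoidHom
    have hφ'inj : Function.Injective φ' := hφinj.comp e.symm.injective
    have ha' : φ' (e ā) = φ ā := by simp [φ']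
    obtain ⟨T⟩ : Nonempty (Sylow 2 ↥(Cfsg.Lie.twistedG2 K (3 ^ m))) := inferInstance
    refine hAb 3 (by norm_num) hW φ' hφ'inj (e ā) (by rw [ha']; exact hquadφ) ?_ T
      (ree_sylow2_comm hK T)
    intro N hN hN3
    exact ree_no_normal3 hm hK N hN hN3 (e ā) (fun h => hāne (by simpa using h))

end Cfsg.Agent.Lib.Helper18.Quad87
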