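import Cfsg.Agent.Lib.Helper18.Ree27
import Cfsg.Agent.Lib.Helper36.ChevBC

/-!
# The Frobenius automorphism of the small Ree group (S2127, piece FROB)

Entrywise Frobenius on `GL₇... (chevG2.Idx) K` maps the generators of `²G₂` to generators, hence
restricts to an automorphism `F` with `F (reeU φ t u v) = reeU φ (t³) (u³) (v³)` and
`F (eta φ s) = eta φ (s³)`.
-/

set_option autoImplicit false

namespace Cfsg.Agent.Lib.Helper18.ReeOutFrob

open Cfsg Cfsg.Lie Matrix Cfsg.Agent.Lib.Helper18 Cfsg.Agent.Lib.Helper36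

variable {K : Type*} [Field K]

theorem glMap_wg (f : K →+* K) (w : List (ℕ × K)) :
    Matrix.GeneralLinearGroup.map (n := chevG2.Idx) f (Ree1.wg K w) =
      Ree1.wg K (w.map fun p => (p.1, f p.2)) := by
  apply Units.ext
  rw [ChevBC.coe_glMap, Ree1.coe_wg, Ree1.coe_wg, ChevBC.wordMat_map]

theorem reeWordU_map (f : K →+* K) (e : ℕ) (t u v : K) :
    (reeWordU e t u v).map (fun p => (p.1, f p.2)) = reeWordU e (f t) (f u) (f v) := by
  simp only [reeWordU, List.map_cons, List.map_nil, map_add, map_pow]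

theorem negWord_map (f : K →+* K) (w : List (ℕ × K)) :
    (chevG2.negWord w).map (fun p => (p.1, f p.2)) =
      chevG2.negWord (w.map fun p => (p.1, f p.2)) := by
  simp only [ChevalleyDatum.negWord, List.map_map]
  apply List.map_congr_left
  intro p _
  simp only [Function.comp_apply, map_neg]

theorem reeWordV_map (f : K →+* K) (e : ℕ) (t u v : K) :
    (reeWordV e t u v).map (fun p => (p.1, f p.2)) = reeWordV e (f t) (f u) (f v) := by
  unfold reeWordV
  rw [negWord_map, reeWordU_map]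

theorem hWord_map (f : K →+* K) (r : ℕ) (t : K) :
    (chevG2.hWord r t).map (fun p => (p.1, f p.2)) = chevG2.hWord r (f t) := by
  simp only [ChevalleyDatum.hWord, ChevalleyDatum.nWord, List.map_append, List.map_cons,
    List.map_nil, map_neg, map_inv₀, map_one]

/-- entrywise `f` maps the twisted group into itself -/
theorem glMap_mem (f : K →+* K) (e : ℕ) (g : GL chevG2.Idx K) (hg : g ∈ twistedG2 K e) :
    Matrix.GeneralLinearGroup.map (n := chevG2.Idx) f g ∈ twistedG2 K e := by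
  have hle : twistedG2 K e ≤
      (twistedG2 K e).comap (Matrix.GeneralLinearGroup.map (n := chevG2.Idx) f) := by
    unfold twistedG2 ChevalleyDatum.genSubgroup
    rw [Subgroup.closure_le]
    rintro g ⟨w, ⟨t, u, v, hw⟩, hgw⟩
    rw [SetLike.mem_coe, Subgroup.mem_comap]
    apply Subgroup.subset_closure
    rcases hw with rfl | rfl
    · refine ⟨reeWordU e (f t) (f u) (f v), ⟨f t, f u, f v, Or.inl rfl⟩, ?_⟩
      rw [ChevBC.coe_glMap, hgw, ChevBC.wordMat_map, reeWordU_map]
    · refine ⟨reeWordV e (f t) (f u) (f v), ⟨f t, f u, f v, Or.inr rfl⟩, ?_⟩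
      rw [ChevBC.coe_glMap, hgw, ChevBC.wordMat_map, reeWordV_map]
  exact hle hg

/-- the Frobenius automorphism -/
theorem main [Fintype K] {m : ℕ} (hK : Fintype.card K = 3 ^ (2 * m + 1))
    (φ : K →+* K) (hφ : ∀ x, φ x = x ^ 3 ^ m) :
    ∃ F : MulAut ↥(Cfsg.Lie.twistedG2 K (3 ^ m)),
      (∀ (g : ↥(Cfsg.Lie.twistedG2 K (3 ^ m))) (t u v : K),
        (g : GL Cfsg.Lie.chevG2.Idx K) = Ree2.reeU φ t u v →
        ((F g : ↥(Cfsg.Lie.twistedG2 K (3 ^ m))) : GL Cfsg.Lie.chevG2.Idx K) =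
          Ree2.reeU φ (t ^ 3) (u ^ 3) (v ^ 3)) ∧
      (∀ (g : ↥(Cfsg.Lie.twistedG2 K (3 ^ m))) (s : K), s ≠ 0 →
        (g : GL Cfsg.Lie.chevG2.Idx K) = Ree7.eta φ s →
        ((F g : ↥(Cfsg.Lie.twistedG2 K (3 ^ m))) : GL Cfsg.Lie.chevG2.Idx K) =
          Ree7.eta φ (s ^ 3)) := by
  classical
  have hch := Ree4.charP3 hK
  let fr : K →+* K := frobenius K 3
  have hfr : ∀ a : K, fr a = a ^ 3 := fun a => frobenius_def 3 a
  let FG : GL chevG2.Idx K →* GL chevG2.Idx K := Matrix.GeneralLinearGroup.map (n := chevG2.Idx) fr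
  let F0 : ↥(twistedG2 K (3 ^ m)) →* ↥(twistedG2 K (3 ^ m)) :=
    (FG.comp (twistedG2 K (3 ^ m)).subtype).codRestrict (twistedG2 K (3 ^ m))
      (fun g => glMap_mem fr (3 ^ m) g.1 g.2)
  have hF0 : ∀ g : ↥(twistedG2 K (3 ^ m)), ((F0 g : ↥(twistedG2 K (3 ^ m))) : GL chevG2.Idx K) =
      FG (g : GL chevG2.Idx K) := fun g => rfl
  have hinj : Function.Injective F0 := by
    intro a b hab
    apply Subtype.ext
    apply ChevBC.glMap_injective fr chevG2
    have := congrArg Subtype.val hab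
    rwa [hF0, hF0] at this
  have hbij : Function.Bijective F0 := Finite.injective_iff_bijective.mp hinj
  refine ⟨MulEquiv.ofBijective F0 hbij, ?_, ?_⟩
  · intro g t u v hg
    change ((F0 g : ↥(twistedG2 K (3 ^ m))) : GL chevG2.Idx K) = _
    rw [hF0, hg, ← Ree4.wg_reeWordU hφ, ← Ree4.wg_reeWordU hφ]
    change Matrix.GeneralLinearGroup.map (n := chevG2.Idx) fr _ = _
    rw [glMap_wg, reeWordU_map, hfr, hfr, hfr]
  · intro g s hs hg
    change ((F0 g : ↥(twistedG2 K (3 ^ m))) : GL chevG2.Idx K) = _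
    rw [hF0, hg]
    unfold Ree7.eta Ree5.hx
    rw [map_mul]
    change Matrix.GeneralLinearGroup.map (n := chevG2.Idx) fr _ *
      Matrix.GeneralLinearGroup.map (n := chevG2.Idx) fr _ = _
    rw [glMap_wg, glMap_wg, hWord_map, hWord_map, hfr, hfr, map_pow]

end Cfsg.Agent.Lib.Helper18.ReeOutFrob
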