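import Cfsg.Agent.Lib.Helper18.Ree27
import Cfsg.Agent.Lib.Helper18.ReeG
import Cfsg.Agent.Lib.Helper42.ReeDegStmt

/-!
# The parametrization `ReeDegStmt.Par` of `U¹` and `H¹` for the small Ree group
(`x t u v = reeU φ t u v`, `e s = eta φ s`), for helper42's S2343 call.
-/

set_option autoImplicit false

namespace Cfsg.Agent.Lib.Helper18.ReePar

open Cfsg.Agent.Lib.Helper18

/-- the parametrization of the unipotent subgroup and the torus of the real small Ree group -/
theorem par_ree {K : Type*} [Field K] [Fintype K] {m : ℕ}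
    (hK : Fintype.card K = 3 ^ (2 * m + 1)) :
    ∃ φ : K →+* K, Cfsg.Agent.Lib.Helper42.ReeDegStmt.Par (Cfsg.Lie.twistedG2 K (3 ^ m)) K φ
      (Ree2.reeU φ) (Ree7.eta φ) := by
  haveI := Ree4.charP3 hK
  obtain ⟨φ, hφ, h3⟩ := Ree4.exists_theta hK
  obtain ⟨Sg⟩ := Ree13.exists_sig φ (ReeG.graph_of_card hK)
  refine ⟨φ, ?_⟩
  exact
    { x_mem := fun t u v => Ree4.reeU_mem_Gam hφ t u v
      x_inj := fun t u v t' u' v' h => Ree3.reeU_inj h
      x_mul := fun t u v t' u' v' => Ree27.reeU_mul h3 t u v t' u' v'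
      e_mem := fun s hs => Ree11.eta_mem_Gam hφ h3 hK rfl hs
      e_inj := fun s s' hs hs' h => Ree7.eta_inj φ hs hs' h
      e_mul := fun s s' hs hs' => Ree7.eta_mul φ hs hs'
      e_x := fun s hs t u v => Ree27.eta_mul_reeU h3 hs t u v
      neg_one := by
        intro h
        have h2 : (2 : K) = 0 := by linear_combination (-1 : K) * h
        have h3' : (3 : K) = 0 := by
          have := CharP.cast_eq_zero K 3
          exact_mod_cast this
        have h1 : (1 : K) = 0 := by linear_combination h3' - h2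
        exact one_ne_zero h1 }

end Cfsg.Agent.Lib.Helper18.ReePar
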