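import Mathlib
import Cfsg.Agent.Lib.Helper18.TwG
import Cfsg.Agent.Lib.Helper18.ChainAll
import Cfsg.Agent.Lib.Helper18.GraphTab
import Cfsg.Agent.S1023
import Cfsg.Agent.S1024

set_option autoImplicit false
set_option linter.unusedSimpArgs false
set_option linter.unusedSectionVars false
set_option linter.unusedVariables false

/-!
# The twisted group of type `D₄` with the triality twist
-/

namespace Cfsg.Agent.Lib.Helper18.TwD4

open Cfsg Cfsg.Lie Cfsg.Agent.Lib.Helper18 Cfsg.Agent.Lib.Helper18.Fast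
  Cfsg.Agent.Lib.Helper18.Facts
  Cfsg.Agent.Lib.Helper18.RootSys Cfsg.Agent.Lib.Helper18.WGroup
  Cfsg.Agent.Lib.Helper18.Graph Cfsg.Agent.Lib.Helper18.Tw0 Cfsg.Agent.Lib.Helper18.Tw1
  Cfsg.Agent.Lib.Helper18.Tw2 Cfsg.Agent.Lib.Helper18.Tw3 Cfsg.Agent.Lib.Helper18.Tw4
  Cfsg.Agent.Lib.Helper18.TwF Cfsg.Agent.Lib.Helper18.TwG

/-- The graph permutation on the fundamental roots. -/
def lD : List ℕ := [2, 1, 3, 0]
/-- The inverse of the graph permutation on the fundamental roots. -/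
def linvD (j : ℕ) : ℕ := [3, 1, 0, 2].getD j 0
/-- The orbit of the three outer nodes. -/
def bS : List ℕ := [0, 2, 3]
/-- The orbit of the central node. -/
def bT : List ℕ := [1]

theorem okP : GraphTab.sp_d4a.OK FTabD4.fd := FTabD4.fd_eq ▸ GraphTab.ok_d4a
theorem okL : SimpleOK GraphTab.sp_d4a FTabD4.fd lD := FTabD4.fd_eq ▸ GraphTab.simple_d4a
theorem hlinvD : ∀ i < FTabD4.fd.rank, linvD (lD.getD i 0) = i := by decide
theorem hposD : ∀ r < FTabD4.fd.n, PosA FTabD4.fd r → PosA FTabD4.fd (GraphTab.sp_d4a.rho r) :=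
  pos_of_posB (by decide +kernel)
theorem blkS : BlkOK FTabD4.fd WTabD4.X lD bS := blkOK_of_blkB (by decide +kernel)
theorem blkT : BlkOK FTabD4.fd WTabD4.X lD bT := blkOK_of_blkB (by decide +kernel)

theorem blkD : ∀ S ∈ [bS, bT], BlkOK FTabD4.fd WTabD4.X lD S := by
  intro S hS
  simp only [List.mem_cons, List.not_mem_nil, or_false] at hS
  rcases hS with rfl | rfl
  · exact blkS
  · exact blkT

/-- The longest word, in blocks. -/
def longD : List (List ℕ) := [bT, bS, bT, bS, bT, bS]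
theorem redLong : RedT FTabD4.fd WTabD4.X longD.flatten := redT_of_redB (by decide +kernel)
theorem lenLong : longD.flatten.length = 12 := by decide

theorem hD : Cfsg.Lie.chevD4 ∈ [Cfsg.Lie.chevG2, Cfsg.Lie.chevB2, Cfsg.Lie.chevD4,
    Cfsg.Lie.chevF4, Cfsg.Lie.chevE6, Cfsg.Lie.chevE7, Cfsg.Lie.chevE8] := by simp

section

variable {K : Type*} [Field K]

theorem haddD : ∀ r < chevD4.nroots, ∀ t u : K,
    chevD4.x K r t * chevD4.x K r u = chevD4.x K r (t + u) :=
  fun r hr t u => Cfsg.Agent.S1023.result _ hD r hr t u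

theorem hinjD : ∀ r < chevD4.nroots, ∀ t : K, chevD4.x K r t = 1 → t = 0 :=
  fun r hr t h => (Cfsg.Agent.S1024.result _ hD r hr t).mp h

theorem s0 : FTabD4.fd.simple 0 = 18 := by decide
theorem s1 : FTabD4.fd.simple 1 = 14 := by decide
theorem s2 : FTabD4.fd.simple 2 = 13 := by decide
theorem s3 : FTabD4.fd.simple 3 = 12 := by decide
theorem n0 : FTabD4.fd.neg 18 = 5 := by decide
theorem n1 : FTabD4.fd.neg 14 = 9 := by decide
theorem n2 : FTabD4.fd.neg 13 = 10 := by decide
theorem n3 : FTabD4.fd.neg 12 = 11 := by decide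

/-- The twisted group is generated by the fixed elements of the fundamental root subgroups. -/
theorem twD4_eq {q : ℕ} (φ : K →+* K) (hφ : ∀ t, φ t = t ^ q) (h3 : ∀ t : K, t ^ (q ^ 3) = t) :
    twistedD4 K q = GamS CAll.cfD4.af φ linvD [bS, bT] := by
  have hF := CAll.cfD4.af
  have hφ2 : ∀ t : K, (t ^ q) ^ q = t ^ (q ^ 2) := fun t => by rw [← pow_mul, sq]
  have hφ3 : ∀ t : K, (t ^ (q ^ 2)) ^ q = t := fun t => by
    rw [← pow_mul, ← pow_succ]
    exact h3 t
  unfold twistedD4 ChevalleyDatum.genSubgroup GamS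
  apply le_antisymm
  · rw [Subgroup.closure_le]
    rintro g ⟨w, hw, hg⟩
    apply Subgroup.subset_closure
    rcases hw with ⟨t, ht, r, hr, rfl⟩ | ⟨t, rs, hrs, rfl⟩
    · simp only [List.mem_cons, List.not_mem_nil, or_false] at hr
      have hc : Comp φ linvD bT (fun _ => t) := fun j _ => by
        show φ t = t
        rw [hφ, ht]
      rcases hr with rfl | rfl
      · refine ⟨bT, by simp, fun _ => t, hc, Or.inl (Units.ext ?_)⟩
        rw [hg, coe_xS hF bT blkT.lt]
        simp [bT, s1, d4p2]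
      · refine ⟨bT, by simp, fun _ => t, hc, Or.inr (Units.ext ?_)⟩
        rw [hg, coe_xnS hF bT blkT.lt]
        simp [bT, s1, n1, d4m2]
    · simp only [List.mem_cons, List.not_mem_nil, or_false] at hrs
      have hc : Comp φ linvD bS (fun j => if j = 0 then t else if j = 2 then t ^ q
          else t ^ (q ^ 2)) := by
        intro j hj
        simp only [bS, List.mem_cons, List.not_mem_nil, or_false] at hj
        rcases hj with rfl | rfl | rfl
        · simp [linvD, hφ, hφ3]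
        · simp [linvD, hφ]
        · simp [linvD, hφ, hφ2]
      rcases hrs with rfl | rfl
      · refine ⟨bS, by simp, _, hc, Or.inl (Units.ext ?_)⟩
        rw [hg, coe_xS hF bS blkS.lt]
        simp [bS, s0, s2, s3, d4p1, d4p3, d4p4]
      · refine ⟨bS, by simp, _, hc, Or.inr (Units.ext ?_)⟩
        rw [hg, coe_xnS hF bS blkS.lt]
        simp [bS, s0, s2, s3, n0, n2, n3, d4m1, d4m3, d4m4]
  · rw [Subgroup.closure_le]
    rintro g ⟨S, hS, f, hf, hg⟩
    apply Subgroup.subset_closure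
    simp only [List.mem_cons, List.not_mem_nil, or_false] at hS
    rcases hS with rfl | rfl
    · have e2 : f 2 = f 0 ^ q := by
        have := hf 2 (by simp [bS])
        rw [← this, hφ]
        rfl
      have e3 : f 3 = f 0 ^ (q ^ 2) := by
        have := hf 3 (by simp [bS])
        rw [← this, hφ, ← hφ2, ← e2]
        rfl
      rcases hg with rfl | rfl
      · refine ⟨[(d4p1, f 0), (d4p3, f 0 ^ q), (d4p4, f 0 ^ (q ^ 2))],
          Or.inr ⟨f 0, (d4p1, d4p3, d4p4), by simp, rfl⟩, ?_⟩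
        rw [coe_xS hF bS blkS.lt]
        simp [bS, s0, s2, s3, d4p1, d4p3, d4p4, e2, e3]
      · refine ⟨[(d4m1, f 0), (d4m3, f 0 ^ q), (d4m4, f 0 ^ (q ^ 2))],
          Or.inr ⟨f 0, (d4m1, d4m3, d4m4), by simp, rfl⟩, ?_⟩
        rw [coe_xnS hF bS blkS.lt]
        simp [bS, s0, s2, s3, n0, n2, n3, d4m1, d4m3, d4m4, e2, e3]
    · have e1 : f 1 ^ q = f 1 := by
        have := hf 1 (by simp [bT])
        rw [hφ] at this
        exact this
      rcases hg with rfl | rfl
      · refine ⟨[(d4p2, f 1)], Or.inl ⟨f 1, e1, d4p2, by simp, rfl⟩, ?_⟩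
        rw [coe_xS hF bT blkT.lt]
        simp [bT, s1, d4p2]
      · refine ⟨[(d4m2, f 1)], Or.inl ⟨f 1, e1, d4m2, by simp, rfl⟩, ?_⟩
        rw [coe_xnS hF bT blkT.lt]
        simp [bT, s1, n1, d4m2]

variable [Fintype K]

theorem card_VF_S {q : ℕ} (hK : Fintype.card K = q ^ 3) (φ : K →+* K) (hφ : ∀ t, φ t = t ^ q) :
    Nat.card (VF K bS (Comp φ linvD bS)) = q ^ 3 := by
  have h3 : ∀ t : K, φ (φ (φ t)) = t := by
    intro t
    rw [hφ, hφ, hφ, ← pow_mul, ← pow_mul, show q * (q * q) = q ^ 3 by ring]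
    exact pow_card_pow hK t
  rw [show bS = [0, 2, 3] from rfl, card_VF_three φ linvD 0 2 3 (by decide) (by decide) (by decide)
    rfl rfl rfl h3, Nat.card_eq_fintype_card, hK]

theorem card_VF_T {q : ℕ} (hq : IsPrimePow q) (hK : Fintype.card K = q ^ 3) (φ : K →+* K)
    (hφ : ∀ t, φ t = t ^ q) : Nat.card (VF K bT (Comp φ linvD bT)) = q := by
  rw [show bT = [1] from rfl, card_VF_one φ linvD 1 rfl]
  simp only [hφ]
  exact card_pow_eq_self hq.one_lt (by norm_num) hK

/-- `|U ∩ ³D₄(q)| = q ^ 12`. -/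
theorem card_U_D4 {q : ℕ} (hq : IsPrimePow q) (hK : Fintype.card K = q ^ 3) :
    Nat.card ↥(chevD4.posUnipotent K ⊓ twistedD4 K q) = q ^ 12 := by
  obtain ⟨φ, hφ⟩ := exists_frob hq (by norm_num : 0 < 3) hK
  rw [twD4_eq φ hφ (pow_card_pow hK),
    card_U_GamS CAll.cfD4 ChainAll.rD4 UAll.uD4 (by decide) haddD hinjD okP okL φ hposD linvD
      hlinvD [bS, bT] blkD longD (by decide) redLong lenLong]
  simp only [longD, List.map_cons, List.map_nil, List.prod_cons, List.prod_nil,
    card_VF_S hK φ hφ, card_VF_T hq hK φ hφ]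
  ring

end

end Cfsg.Agent.Lib.Helper18.TwD4
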