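import Mathlib
import Cfsg.Agent.Lib.Helper18.Tw6
import Cfsg.Agent.Lib.Helper18.TwD4
import Cfsg.Agent.Lib.Helper18.HOrderTab

set_option autoImplicit false
set_option linter.unusedSimpArgs false
set_option linter.unusedSectionVars false
set_option linter.unusedVariables false

/-!
# The torus of the twisted group of type `D₄`
-/

namespace Cfsg.Agent.Lib.Helper18.TwD4H

open Cfsg Cfsg.Lie Cfsg.Agent.Lib.Helper18 Cfsg.Agent.Lib.Helper18.Fast
  Cfsg.Agent.Lib.Helper18.Facts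
  Cfsg.Agent.Lib.Helper18.RootSys Cfsg.Agent.Lib.Helper18.WGroup
  Cfsg.Agent.Lib.Helper18.Graph Cfsg.Agent.Lib.Helper18.Tw0 Cfsg.Agent.Lib.Helper18.Tw1
  Cfsg.Agent.Lib.Helper18.Tw2 Cfsg.Agent.Lib.Helper18.Tw3 Cfsg.Agent.Lib.Helper18.Tw4
  Cfsg.Agent.Lib.Helper18.TwF Cfsg.Agent.Lib.Helper18.TwG Cfsg.Agent.Lib.Helper18.Tw6
  Cfsg.Agent.Lib.Helper18.TwD4 Cfsg.Agent.Lib.Helper18.HOrder

theorem hlinv2D : ∀ j < FTabD4.fd.rank, linvD j < FTabD4.fd.rank := by decide
theorem hpermD : ((List.range FTabD4.fd.rank).map fun i => lD.getD i 0).Perm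
    (List.range FTabD4.fd.rank) := by decide
theorem hcovD : [bS, bT].flatten.Perm (List.range FTabD4.fd.rank) := by decide
theorem linv3D : ∀ j < FTabD4.fd.rank, linvD (linvD (linvD j)) = j := by decide

theorem hokD : HOK FTabD4.fd (HOrderTab.matOf HOrderTab.pD4) (HOrderTab.matOf HOrderTab.p'D4)
    (HOrderTab.matOf HOrderTab.qD4) (HOrderTab.matOf HOrderTab.q'D4)
    (HOrderTab.natOf HOrderTab.dD4) (HOrderTab.packOf 4 HOrderTab.mD4) := by
  rw [FTabD4.fd_eq]
  exact HOrderTab.hokD4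

theorem cz00 : cartanZ FTabD4.fd 0 0 = 2 := by decide
theorem cz01 : cartanZ FTabD4.fd 0 1 = -1 := by decide
theorem cz02 : cartanZ FTabD4.fd 0 2 = 0 := by decide
theorem cz03 : cartanZ FTabD4.fd 0 3 = 0 := by decide
theorem cz10 : cartanZ FTabD4.fd 1 0 = -1 := by decide
theorem cz11 : cartanZ FTabD4.fd 1 1 = 2 := by decide
theorem cz12 : cartanZ FTabD4.fd 1 2 = -1 := by decide
theorem cz13 : cartanZ FTabD4.fd 1 3 = -1 := by decide
theorem cz20 : cartanZ FTabD4.fd 2 0 = 0 := by decide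
theorem cz21 : cartanZ FTabD4.fd 2 1 = -1 := by decide
theorem cz22 : cartanZ FTabD4.fd 2 2 = 2 := by decide
theorem cz23 : cartanZ FTabD4.fd 2 3 = 0 := by decide
theorem cz30 : cartanZ FTabD4.fd 3 0 = 0 := by decide
theorem cz31 : cartanZ FTabD4.fd 3 1 = -1 := by decide
theorem cz32 : cartanZ FTabD4.fd 3 2 = 0 := by decide
theorem cz33 : cartanZ FTabD4.fd 3 3 = 2 := by decide

section

variable {K : Type*} [Field K]

/-- The twist on the parameters of the torus. -/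
noncomputable def tauD (φ : K →+* K) : (Fin 4 → Kˣ) →* (Fin 4 → Kˣ) :=
  tauP (A := FTabD4.fd) φ linvD hlinv2D

/-- The torus parametrization. -/
noncomputable def torD (K : Type*) [Field K] : (Fin 4 → Kˣ) →* GL chevD4.Idx K :=
  torHom chevD4 FTabD4.fd K

theorem tauD_apply (φ : K →+* K) (c : Fin 4 → Kˣ) (j : Fin 4) :
    tauD φ c j = Units.map (φ : K →* K) (c ⟨linvD j.val, hlinv2D j.val j.isLt⟩) := rfl

theorem kerD (w : Fin 4 → Kˣ) (hw : w ∈ (torD K).ker) :
    (w 1 : K) = 1 ∧ (w 0 : K) ^ 2 = 1 ∧ (w 2 : K) ^ 2 = 1 ∧ (w 3 : K) ^ 2 = 1 ∧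
      (w 0 : K) * w 2 * w 3 = 1 := by
  have h := (torHom_ker CAll.cfD4.af hokD w).mp hw
  have v0 : ((0 : Fin 4) : ℕ) = 0 := rfl
  have v1 : ((1 : Fin 4) : ℕ) = 1 := rfl
  have v2 : ((2 : Fin 4) : ℕ) = 2 := rfl
  have v3 : ((3 : Fin 4) : ℕ) = 3 := rfl
  have h0 : (∏ i : Fin 4, (w i) ^ cartanZ FTabD4.fd i (0 : Fin 4)) = 1 := congrFun h (0 : Fin 4)
  have h1 : (∏ i : Fin 4, (w i) ^ cartanZ FTabD4.fd i (1 : Fin 4)) = 1 := congrFun h (1 : Fin 4)
  have h2 : (∏ i : Fin 4, (w i) ^ cartanZ FTabD4.fd i (2 : Fin 4)) = 1 := congrFun h (2 : Fin 4)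
  have h3 : (∏ i : Fin 4, (w i) ^ cartanZ FTabD4.fd i (3 : Fin 4)) = 1 := congrFun h (3 : Fin 4)
  rw [Fin.prod_univ_four] at h0 h1 h2 h3
  simp only [v0, v1, v2, v3, cz00, cz01, cz02, cz03, cz10, cz11, cz12, cz13, cz20, cz21, cz22, cz23, cz30, cz31, cz32, cz33] at h0 h1 h2 h3
  have k0 := congrArg Units.val h0
  have k1 := congrArg Units.val h1
  have k2 := congrArg Units.val h2
  have k3 := congrArg Units.val h3
  simp only [Units.val_mul, Units.val_zpow_eq_zpow_val, Units.val_one, zpow_zero, mul_one,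
    one_mul, zpow_neg, zpow_one, zpow_ofNat, Units.val_pow_eq_pow_val, Units.val_inv_eq_inv_val,
    pow_one, pow_zero] at k0 k1 k2 k3
  have na : (w 0 : K) ≠ 0 := Units.ne_zero _
  have nb : (w 1 : K) ≠ 0 := Units.ne_zero _
  have nc : (w 2 : K) ≠ 0 := Units.ne_zero _
  have nd : (w 3 : K) ≠ 0 := Units.ne_zero _
  generalize (w 0 : K) = a at *
  generalize (w 1 : K) = b at *
  generalize (w 2 : K) = c at *
  generalize (w 3 : K) = d at *
  field_simp at k0 k1 k2 k3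
  have e4 : b ^ 3 * (b - 1) = 0 := by
    have : (b ^ 2) ^ 2 = (a * c * d) ^ 2 := by rw [k1]
    have h5 : (a * c * d) ^ 2 = a ^ 2 * c ^ 2 * d ^ 2 := by ring
    rw [h5, k0, k2, k3] at this
    linear_combination this
  have hb : b = 1 := by
    rcases mul_eq_zero.mp e4 with h | h
    · exact absurd (pow_eq_zero_iff (by norm_num) |>.mp h) nb
    · exact sub_eq_zero.mp h
  subst hb
  refine ⟨rfl, k0, k2, k3, ?_⟩
  rw [← k1]
  ring

theorem tau3 (φ : K →+* K) (h3 : ∀ t, φ (φ (φ t)) = t) (c : Fin 4 → Kˣ) :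
    tauD φ (tauD φ (tauD φ c)) = c := by
  have key : ∀ j : Fin 4, tauD φ (tauD φ (tauD φ c)) j = c j := by
    intro j
    fin_cases j
    · exact Units.ext (h3 (c 0 : K))
    · exact Units.ext (h3 (c 1 : K))
    · exact Units.ext (h3 (c 2 : K))
    · exact Units.ext (h3 (c 3 : K))
  exact funext key

theorem tau_ker (φ : K →+* K) (w : Fin 4 → Kˣ) (hw : w ∈ (torD K).ker) :
    tauD φ w ∈ (torD K).ker := by
  rw [MonoidHom.mem_ker] at hw ⊢
  have h := sg_torHom okP CAll.cfD4.af okL φ linvD hlinvD hlinv2D hpermD w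
  have hw' : torHom chevD4 FTabD4.fd K w = 1 := hw
  rw [hw', map_one] at h
  exact h.symm

theorem sqD (w : Fin 4 → Kˣ) (hw : w ∈ (torD K).ker) : w ^ 2 = 1 := by
  obtain ⟨h1, h0, h2, h3, -⟩ := kerD w hw
  have key : ∀ j : Fin 4, ((w j : Kˣ) : K) ^ 2 = 1 := by
    intro j
    fin_cases j
    · exact h0
    · show (w 1 : K) ^ 2 = 1
      rw [h1, one_pow]
    · exact h2
    · exact h3
  funext j
  apply Units.ext
  rw [Pi.pow_apply, Units.val_pow_eq_pow_val]
  exact key j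

theorem H1D (φ : K →+* K) (h3 : ∀ t, φ (φ (φ t)) = t) (c : Fin 4 → Kˣ) :
    tauD φ c / c ∈ (torD K).ker → ∃ z ∈ (torD K).ker, tauD φ z / z = tauD φ c / c :=
  H1_three (torD K) (tauD φ) (tau3 φ h3) (tau_ker φ) sqD c

theorem botD (φ : K →+* K) :
    ((torD K).ker ⊓ (tauD φ).eqLocus (MonoidHom.id (Fin 4 → Kˣ)) : Subgroup (Fin 4 → Kˣ)) = ⊥ := by
  rw [eq_bot_iff]
  rintro w ⟨hw, hfix⟩
  have hfix' : tauD φ w = w := hfix
  obtain ⟨h1, h0, h2, h3, hp⟩ := kerD w hw
  have e2 : φ (w 0 : K) = w 2 := congrArg Units.val (congrFun hfix' (2 : Fin 4))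
  have e3 : φ (w 2 : K) = w 3 := congrArg Units.val (congrFun hfix' (3 : Fin 4))
  have hφ0 : φ (w 0 : K) = w 0 := by
    have h00 : (w 0 : K) * (w 0 : K) = 1 := by rw [← sq]; exact h0
    rcases mul_self_eq_one_iff.mp h00 with h | h
    · rw [h, map_one]
    · rw [h, map_neg, map_one]
  have a2 : (w 2 : K) = w 0 := by rw [← e2, hφ0]
  have a3 : (w 3 : K) = w 0 := by rw [← e3, a2, hφ0]
  rw [a2, a3] at hp
  have a0 : (w 0 : K) = 1 := by linear_combination hp - (w 0 : K) * h0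
  have key : ∀ j : Fin 4, ((w j : Kˣ) : K) = 1 := by
    intro j
    fin_cases j
    · exact a0
    · exact h1
    · exact a2.trans a0
    · exact a3.trans a0
  rw [Subgroup.mem_bot]
  funext j
  exact Units.ext (key j)

theorem card_fixD [Fintype K] {q : ℕ} (hq : IsPrimePow q) (hK : Fintype.card K = q ^ 3)
    (φ : K →+* K) (hφ : ∀ t, φ t = t ^ q) :
    Nat.card ↥((tauD φ).eqLocus (MonoidHom.id (Fin 4 → Kˣ))) = (q ^ 3 - 1) * (q - 1) := by
  classical
  have h3 : ∀ t : K, φ (φ (φ t)) = t := by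
    intro t
    rw [hφ, hφ, hφ, ← pow_mul, ← pow_mul, show q * (q * q) = q ^ 3 by ring]
    exact pow_card_pow hK t
  have e : ↥((tauD φ).eqLocus (MonoidHom.id (Fin 4 → Kˣ))) ≃
      Kˣ × {t : Kˣ // Units.map (φ : K →* K) t = t} :=
    { toFun := fun c => (c.1 0, ⟨c.1 1, congrFun c.2 (1 : Fin 4)⟩)
      invFun := fun p => ⟨![p.1, p.2.1, Units.map (φ : K →* K) p.1,
          Units.map (φ : K →* K) (Units.map (φ : K →* K) p.1)], by
        have key : ∀ j : Fin 4, tauD φ ![p.1, p.2.1, Units.map (φ : K →* K) p.1,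
            Units.map (φ : K →* K) (Units.map (φ : K →* K) p.1)] j =
            ![p.1, p.2.1, Units.map (φ : K →* K) p.1,
              Units.map (φ : K →* K) (Units.map (φ : K →* K) p.1)] j := by
          intro j
          fin_cases j
          · exact Units.ext (h3 (p.1 : K))
          · exact p.2.2
          · rfl
          · rfl
        exact funext key⟩
      left_inv := by
        rintro ⟨c, hc⟩
        have hc' : tauD φ c = c := hc
        have e2 : Units.map (φ : K →* K) (c 0) = c 2 := congrFun hc' (2 : Fin 4)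
        have e3 : Units.map (φ : K →* K) (c 2) = c 3 := congrFun hc' (3 : Fin 4)
        apply Subtype.ext
        have key : ∀ j : Fin 4, ![c 0, c 1, Units.map (φ : K →* K) (c 0),
            Units.map (φ : K →* K) (Units.map (φ : K →* K) (c 0))] j = c j := by
          intro j
          fin_cases j
          · rfl
          · rfl
          · exact e2
          · show Units.map (φ : K →* K) (Units.map (φ : K →* K) (c 0)) = c 3
            rw [e2, e3]
        exact funext key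
      right_inv := by
        rintro ⟨s, t, ht⟩
        rfl }
  rw [Nat.card_congr e, Nat.card_prod, card_units_fix hq.one_lt (by norm_num) hK φ hφ,
    Nat.card_eq_fintype_card, Fintype.card_units, hK]

/-- `|H ∩ ³D₄(q)| = (q ^ 3 - 1) (q - 1)`. -/
theorem card_H_D4 [Fintype K] {q : ℕ} (hq : IsPrimePow q) (hK : Fintype.card K = q ^ 3) :
    Nat.card ↥(chevD4.diagonalSubgroup K ⊓ twistedD4 K q) = (q ^ 3 - 1) * (q - 1) := by
  obtain ⟨φ, hφ⟩ := exists_frob hq (by norm_num : 0 < 3) hK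
  have h3 : ∀ t : K, φ (φ (φ t)) = t := by
    intro t
    rw [hφ, hφ, hφ, ← pow_mul, ← pow_mul, show q * (q * q) = q ^ 3 by ring]
    exact pow_card_pow hK t
  have h : Nat.card ↥(chevD4.diagonalSubgroup K ⊓ GamS CAll.cfD4.af φ linvD [bS, bT]) *
      Nat.card ↥((torD K).ker ⊓ (tauD φ).eqLocus (MonoidHom.id (Fin 4 → Kˣ)) :
        Subgroup (Fin 4 → Kˣ)) =
      Nat.card ↥((tauD φ).eqLocus (MonoidHom.id (Fin 4 → Kˣ))) :=
    card_H_GamS CAll.cfD4 okP okL φ linvD hlinvD hlinv2D hpermD blkD hcovD (H1D φ h3)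
  rw [botD φ, Subgroup.card_bot, mul_one, card_fixD hq hK φ hφ] at h
  rw [twD4_eq φ hφ (pow_card_pow hK)]
  exact h

end

end Cfsg.Agent.Lib.Helper18.TwD4H
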