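import Mathlib
import Cfsg.Agent.Lib.Helper18.Tw7
import Cfsg.Agent.Lib.Helper18.TwD4H

set_option autoImplicit false
set_option linter.unusedSimpArgs false
set_option linter.unusedSectionVars false
set_option linter.unusedVariables false

/-!
# The order of the twisted group of type `D₄`
-/

namespace Cfsg.Agent.Lib.Helper18.TwD4O

open Cfsg Cfsg.Lie Cfsg.Agent.Lib.Helper18 Cfsg.Agent.Lib.Helper18.Fast
  Cfsg.Agent.Lib.Helper18.Facts
  Cfsg.Agent.Lib.Helper18.RootSys Cfsg.Agent.Lib.Helper18.WGroup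
  Cfsg.Agent.Lib.Helper18.Graph Cfsg.Agent.Lib.Helper18.Tw0 Cfsg.Agent.Lib.Helper18.Tw1
  Cfsg.Agent.Lib.Helper18.Tw2 Cfsg.Agent.Lib.Helper18.Tw3 Cfsg.Agent.Lib.Helper18.Tw4
  Cfsg.Agent.Lib.Helper18.Tw5
  Cfsg.Agent.Lib.Helper18.TwF Cfsg.Agent.Lib.Helper18.TwG Cfsg.Agent.Lib.Helper18.Tw6
  Cfsg.Agent.Lib.Helper18.Tw7
  Cfsg.Agent.Lib.Helper18.TwD4 Cfsg.Agent.Lib.Helper18.TwD4H Cfsg.Agent.Lib.Helper18.HOrder
  Cfsg.Agent.Lib.Helper18.Long

/-- The words of the twisted Weyl group, in blocks. -/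
def wssD : List (List (List ℕ)) := [[], [bT], [bS], [bT, bS], [bS, bT], [bT, bS, bT],
  [bS, bT, bS], [bT, bS, bT, bS], [bS, bT, bS, bT], [bT, bS, bT, bS, bT], [bS, bT, bS, bT, bS],
  [bT, bS, bT, bS, bT, bS]]

theorem hTrhoD : ∀ i < FTabD4.fd.rank, ∀ r < FTabD4.fd.n,
    GraphTab.sp_d4a.rho (WTabD4.X.W i r) = WTabD4.X.W (lD.getD i 0) (GraphTab.sp_d4a.rho r) :=
  trho_of_trhoB (by decide +kernel)

theorem hposrD : ∀ r < FTabD4.fd.n, PosA FTabD4.fd (GraphTab.sp_d4a.rho r) → PosA FTabD4.fd r :=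
  posr_of_posrB (by decide +kernel)

theorem wblkS : WBlk FTabD4.fd WTabD4.X lD bS := wblk_of_wblkB (by decide +kernel)
theorem wblkT : WBlk FTabD4.fd WTabD4.X lD bT := wblk_of_wblkB (by decide +kernel)

theorem wblkD : ∀ S ∈ [bS, bT], WBlk FTabD4.fd WTabD4.X lD S := by
  intro S hS
  simp only [List.mem_cons, List.not_mem_nil, or_false] at hS
  rcases hS with rfl | rfl
  · exact wblkS
  · exact wblkT

theorem hcovD' : ∀ i < FTabD4.fd.rank, ∃ S ∈ [bS, bT], i ∈ S := by decide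

theorem hsubD : ∀ Ss ∈ wssD, ∀ S ∈ Ss, S ∈ [bS, bT] := by decide

theorem hredD : ∀ Ss ∈ wssD, RedT FTabD4.fd WTabD4.X Ss.flatten := by
  have h : wssD.all (fun Ss => redB FTabD4.fd WTabD4.X Ss.flatten) = true := by decide +kernel
  intro Ss hSs
  exact redT_of_redB (List.all_eq_true.mp h Ss hSs)

theorem hclD : ∀ Ss ∈ wssD, ∀ S ∈ [bS, bT], ∃ Ss' ∈ wssD, ∀ i < FTabD4.fd.rank,
    wperm WTabD4.X (Ss.flatten ++ S.reverse) (FTabD4.fd.simple i) =
      wperm WTabD4.X Ss'.flatten (FTabD4.fd.simple i) :=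
  cl_of_clB (by decide +kernel)

theorem hdisD : (wssD.map fun Ss => (List.range FTabD4.fd.rank).map
    fun i => wperm WTabD4.X Ss.flatten (FTabD4.fd.simple i)).Nodup := by decide +kernel

section

variable {K : Type*} [Field K] [Fintype K]

/-- `|³D₄(q)|`. -/
theorem card_D4 {q : ℕ} (hq : IsPrimePow q) (hK : Fintype.card K = q ^ 3) :
    Nat.card ↥(twistedD4 K q) =
      (1 + q) * (1 + q ^ 3) * (1 + q ^ 4 + q ^ 8) * (q ^ 12 * ((q ^ 3 - 1) * (q - 1))) := by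
  obtain ⟨φ, hφ⟩ := exists_frob hq (by norm_num : 0 < 3) hK
  have hU := card_U_D4 hq hK
  have hH := card_H_D4 hq hK
  rw [twD4_eq φ hφ (pow_card_pow hK)] at hU hH ⊢
  have hfix := GamS_le_fix CAll.cfD4 okP okL φ linvD hlinvD [bS, bT] blkD
  have hgok : ∀ S ∈ [bS, bT], GOK CAll.cfD4.af WTabD4.X lD φ linvD
      (GamS CAll.cfD4.af φ linvD [bS, bT]) S :=
    fun S hS => GamS_gok CAll.cfD4 φ linvD [bS, bT] blkD hS
  have hUle := U_fix_le CAll.cfD4 ChainAll.rD4 UAll.uD4 (by decide) haddD hinjD okP okL φ hposD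
    linvD hlinvD longD (fun S hS => hgok S (by revert S; decide)) redLong lenLong
  have hB := card_inter_B CAll.cfD4 haddD okP okL φ hposD hfix hUle
  have hG := card_Gam CAll.cfD4 ChainAll.rD4 UAll.uD4 (by decide) haddD hinjD okP okL φ hposD
    linvD hlinvD hfix (GamS_le_group CAll.cfD4 φ linvD [bS, bT]) hTrhoD hposrD [bS, bT] wblkD
    hcovD' wssD (by decide) (fun Ss hSs S hS => hgok S (hsubD Ss hSs S hS)) hredD hclD hdisD
  rw [hG, hB, hU, hH]
  simp only [wssD, List.map_cons, List.map_nil, List.prod_cons, List.prod_nil, List.sum_cons,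
    List.sum_nil, card_VF_S hK φ hφ, card_VF_T hq hK φ hφ]
  ring

end

end Cfsg.Agent.Lib.Helper18.TwD4O
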