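import Mathlib
import Cfsg.Agent.Lib.Helper18.TwSimp
import Cfsg.Agent.Lib.Helper18.TwD4O

set_option autoImplicit false
set_option linter.unusedSimpArgs false
set_option linter.unusedSectionVars false
set_option linter.unusedVariables false

/-!
# The `(B, N)`-pair of the twisted group of type `D₄`
-/

namespace Cfsg.Agent.Lib.Helper18.TwD4B

open Cfsg Cfsg.Lie Cfsg.Agent.Lib.Helper18 Cfsg.Agent.Lib.Helper18.Fast
  Cfsg.Agent.Lib.Helper18.Facts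
  Cfsg.Agent.Lib.Helper18.RootSys Cfsg.Agent.Lib.Helper18.WGroup
  Cfsg.Agent.Lib.Helper18.Graph Cfsg.Agent.Lib.Helper18.Tw0 Cfsg.Agent.Lib.Helper18.Tw1
  Cfsg.Agent.Lib.Helper18.Tw2 Cfsg.Agent.Lib.Helper18.Tw3 Cfsg.Agent.Lib.Helper18.Tw4
  Cfsg.Agent.Lib.Helper18.Tw5
  Cfsg.Agent.Lib.Helper18.TwF Cfsg.Agent.Lib.Helper18.TwG Cfsg.Agent.Lib.Helper18.Tw6
  Cfsg.Agent.Lib.Helper18.Tw7
  Cfsg.Agent.Lib.Helper18.TwD4 Cfsg.Agent.Lib.Helper18.TwD4H Cfsg.Agent.Lib.Helper18.HOrder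
  Cfsg.Agent.Lib.Helper18.Long Cfsg.Agent.Lib.Helper18.TwD4O Cfsg.Agent.Lib.Helper18.TwBN
  Cfsg.Agent.Lib.Helper18.TwBN2 Cfsg.Agent.Lib.Helper18.TwBN3 Cfsg.Agent.Lib.Helper18.Cells2
  Cfsg.Agent.Lib.Helper18.TwSimp

theorem hBredD : ∀ S ∈ [bS, bT], RedT FTabD4.fd WTabD4.X S := by
  have h : [bS, bT].all (fun S => redB FTabD4.fd WTabD4.X S) = true := by decide +kernel
  intro S hS
  exact redT_of_redB (List.all_eq_true.mp h S hS)

theorem hBneD : ∀ S ∈ [bS, bT], S ≠ [] := by decide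

theorem hsubBD : ∀ S ∈ [bS, bT], subB FTabD4.fd WTabD4.X lD S = true := by decide +kernel

theorem hinjBD : injB FTabD4.fd WTabD4.X [bS, bT] = true := by decide +kernel

theorem hsqBD : ∀ S ∈ [bS, bT], sqB FTabD4.fd WTabD4.X S = true := by decide +kernel

theorem hchainD : chainB FTabD4.fd WTabD4.X [bS, bT] = true := by decide +kernel

section

variable {K : Type*} [Field K] [Fintype K]

/-- The `(B, N)`-pair of `³D₄(q)`. -/
theorem bn_D4 {q : ℕ} (hq : IsPrimePow q) (hK : Fintype.card K = q ^ 3) :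
    ∃ P : Cfsg.BNPair ↥(twistedD4 K q),
      P.B = (chevD4.borelSubgroup K ⊓ twistedD4 K q).subgroupOf (twistedD4 K q) ∧
      P.N = (chevD4.monomialSubgroup K ⊓ twistedD4 K q).subgroupOf (twistedD4 K q) ∧
      P.Irreducible ∧ P.S.Nonempty := by
  obtain ⟨φ, hφ⟩ := exists_frob hq (by norm_num : 0 < 3) hK
  rw [twD4_eq φ hφ (pow_card_pow hK)]
  have hfix := GamS_le_fix CAll.cfD4 okP okL φ linvD hlinvD [bS, bT] blkD
  have hgok : ∀ S ∈ [bS, bT], GOK CAll.cfD4.af WTabD4.X lD φ linvD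
      (GamS CAll.cfD4.af φ linvD [bS, bT]) S :=
    fun S hS => GamS_gok CAll.cfD4 φ linvD [bS, bT] blkD hS
  have hWlt : ∀ Ss ∈ wssD, ∀ i ∈ Ss.flatten, i < FTabD4.fd.rank := fun Ss hSs =>
    flatten_lt Ss (fun S hS => blkD S (hsubD Ss hSs S hS))
  have HEX : ∀ g ∈ GamS CAll.cfD4.af φ linvD [bS, bT], ∃ Ss : List (List ℕ),
      (∀ S ∈ Ss, S ∈ [bS, bT]) ∧ RedT FTabD4.fd WTabD4.X Ss.flatten ∧
      g ∈ cell CAll.cfD4 K Ss.flatten := by
    intro g hg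
    obtain ⟨Ss, hSs, hc⟩ := hexG CAll.cfD4 ChainAll.rD4 UAll.uD4 (by decide) haddD hinjD okP okL φ
      hposD hfix (GamS_le_group CAll.cfD4 φ linvD [bS, bT]) hTrhoD hposrD [bS, bT] wblkD hcovD'
      wssD (by decide) hWlt hclD g hg
    exact ⟨Ss, hsubD Ss hSs, hredD Ss hSs, hc⟩
  exact twisted_bn_irr CAll.cfD4 ChainAll.rD4 UAll.uD4 (by decide) haddD hinjD okP okL φ hposD linvD
    hlinvD hfix [bS, bT] hgok hBredD hBneD hsubBD hinjBD hsqBD HEX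
    hchainD (by decide)

end

end Cfsg.Agent.Lib.Helper18.TwD4B
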