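import Mathlib
import Cfsg.Agent.Lib.Helper18.TwSimp
import Cfsg.Agent.Lib.Helper18.TwE6O

set_option autoImplicit false
set_option linter.unusedSimpArgs false
set_option linter.unusedSectionVars false
set_option linter.unusedVariables false
set_option maxRecDepth 100000

/-!
# The `(B, N)`-pair of the twisted group of type `E₆`
-/

namespace Cfsg.Agent.Lib.Helper18.TwE6B

open Cfsg Cfsg.Lie Cfsg.Agent.Lib.Helper18 Cfsg.Agent.Lib.Helper18.Fast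
  Cfsg.Agent.Lib.Helper18.Facts
  Cfsg.Agent.Lib.Helper18.RootSys Cfsg.Agent.Lib.Helper18.WGroup
  Cfsg.Agent.Lib.Helper18.Graph Cfsg.Agent.Lib.Helper18.Tw0 Cfsg.Agent.Lib.Helper18.Tw1
  Cfsg.Agent.Lib.Helper18.Tw2 Cfsg.Agent.Lib.Helper18.Tw3 Cfsg.Agent.Lib.Helper18.Tw4
  Cfsg.Agent.Lib.Helper18.Tw5
  Cfsg.Agent.Lib.Helper18.TwF Cfsg.Agent.Lib.Helper18.TwG Cfsg.Agent.Lib.Helper18.Tw6
  Cfsg.Agent.Lib.Helper18.Tw7 Cfsg.Agent.Lib.Helper18.Tw8
  Cfsg.Agent.Lib.Helper18.TwE6 Cfsg.Agent.Lib.Helper18.TwE6H Cfsg.Agent.Lib.Helper18.HOrder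
  Cfsg.Agent.Lib.Helper18.Long Cfsg.Agent.Lib.Helper18.TwE6Tab Cfsg.Agent.Lib.Helper18.TwE6O
  Cfsg.Agent.Lib.Helper18.TwBN
  Cfsg.Agent.Lib.Helper18.TwBN2 Cfsg.Agent.Lib.Helper18.TwBN3 Cfsg.Agent.Lib.Helper18.Cells2
  Cfsg.Agent.Lib.Helper18.TwSimp

theorem hBredE : ∀ S ∈ [b1, b3, b24, b05], RedT FTabE6.fd WTabE6.X S := by
  have h : [b1, b3, b24, b05].all (fun S => redB FTabE6.fd WTabE6.X S) = true := by
    decide +kernel
  intro S hS
  exact redT_of_redB (List.all_eq_true.mp h S hS)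

theorem hBneE : ∀ S ∈ [b1, b3, b24, b05], S ≠ [] := by decide

theorem hsubBE : ∀ S ∈ [b1, b3, b24, b05], subB FTabE6.fd WTabE6.X lE S = true := by
  decide +kernel

theorem hinjBE : injB FTabE6.fd WTabE6.X [b1, b3, b24, b05] = true := by decide +kernel

theorem hsqBE : ∀ S ∈ [b1, b3, b24, b05], sqB FTabE6.fd WTabE6.X S = true := by decide +kernel

theorem hchainE : chainB FTabE6.fd WTabE6.X [b1, b3, b24, b05] = true := by decide +kernel

section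

variable {K : Type*} [Field K] [Fintype K]

/-- The `(B, N)`-pair of `²E₆(q)`. -/
theorem bn_E6 {q : ℕ} (hq : IsPrimePow q) (hK : Fintype.card K = q ^ 2) :
    ∃ P : Cfsg.BNPair ↥(twistedE6 K q),
      P.B = (chevE6.borelSubgroup K ⊓ twistedE6 K q).subgroupOf (twistedE6 K q) ∧
      P.N = (chevE6.monomialSubgroup K ⊓ twistedE6 K q).subgroupOf (twistedE6 K q) ∧
      P.Irreducible ∧ P.S.Nonempty := by
  obtain ⟨φ, hφ⟩ := exists_frob hq (by norm_num : 0 < 2) hK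
  rw [twE6_eq φ hφ (pow_card_pow hK)]
  have hfix := GamS_le_fix CAll.cfE6 okP okL φ linvE hlinvE [b1, b3, b24, b05] blkE
  have hgok : ∀ S ∈ [b1, b3, b24, b05], GOK CAll.cfE6.af WTabE6.X lE φ linvE
      (GamS CAll.cfE6.af φ linvE [b1, b3, b24, b05]) S :=
    fun S hS => GamS_gok CAll.cfE6 φ linvE [b1, b3, b24, b05] blkE hS
  have hWlt : ∀ Ss ∈ wssE, ∀ i ∈ Ss.flatten, i < FTabE6.fd.rank := fun Ss hSs =>
    flatten_lt Ss (fun S hS => blkE S (hsubE Ss hSs S hS))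
  have hcl := cl_of_clF CAll.cfE6 ChainAll.rE6 UAll.uE6 (by decide) (haddE (K := K)) hinjE
    [b1, b3, b24, b05] wblkE wssE hWlt ((List.range 1152).map fTE) nxtE hFE
    (clF_of_clG [b1, b3, b24, b05] 1152 fTE nxtE hclGE)
  have HEX : ∀ g ∈ GamS CAll.cfE6.af φ linvE [b1, b3, b24, b05], ∃ Ss : List (List ℕ),
      (∀ S ∈ Ss, S ∈ [b1, b3, b24, b05]) ∧ RedT FTabE6.fd WTabE6.X Ss.flatten ∧
      g ∈ cell CAll.cfE6 K Ss.flatten := by
    intro g hg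
    obtain ⟨Ss, hSs, hc⟩ := hexG CAll.cfE6 ChainAll.rE6 UAll.uE6 (by decide) haddE hinjE okP okL φ
      hposE hfix (GamS_le_group CAll.cfE6 φ linvE [b1, b3, b24, b05]) hTrhoE hposrE
      [b1, b3, b24, b05] wblkE hcovE' wssE hW0E hWlt hcl g hg
    exact ⟨Ss, hsubE Ss hSs, hredE Ss hSs, hc⟩
  exact twisted_bn_irr CAll.cfE6 ChainAll.rE6 UAll.uE6 (by decide) haddE hinjE okP okL φ hposE linvE
    hlinvE hfix [b1, b3, b24, b05] hgok hBredE hBneE hsubBE hinjBE hsqBE HEX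
    hchainE (by decide)

end

end Cfsg.Agent.Lib.Helper18.TwE6B
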